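import Mathlib
import Cfsg.Agent.Lib.Asch.BilinExtra
import Cfsg.Agent.Lib.ClMax.SpTv
import Cfsg.Agent.Lib.ClMax.ExtSp
import Cfsg.Agent.Lib.PGroup.Symplectic

/-! Every geometric subgroup of a symplectic group of dimension at least four is proper. -/

set_option autoImplicit false

namespace CfsgLib.CasesSp

open Cfsg Cfsg.Geo Matrix CfsgLib.Asch
open scoped MatrixGroups Kronecker commutatorElement

variable {ι : Type} [Fintype ι] [DecidableEq ι] {F : Type*} [Field F]
variable {f : (ι → F) → (ι → F) → F}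

/-- a bilinear form given as a function, as a bilinear map -/
def toB (hf : IsBilinearForm f) : LinearMap.BilinForm F (ι → F) :=
  LinearMap.mk₂ F f hf.add_left hf.smul_left hf.add_right fun c x y => hf.smul_right c x y

omit [Fintype ι] [DecidableEq ι] in
@[simp] theorem toB_apply (hf : IsBilinearForm f) (u v : ι → F) : toB hf u v = f u v := rfl

omit [Fintype ι] [DecidableEq ι] in
theorem toB_alt (hf : IsSymplecticForm f) : (toB hf.bilinear).IsAlt := hf.alternating

omit [Fintype ι] [DecidableEq ι] in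
theorem toB_nondeg (hf : IsBilinearForm f) (hn : IsNondegenerateForm f) :
    (toB hf).Nondegenerate := by
  refine ⟨fun v hv => ?_, fun v hv => ?_⟩
  · by_contra h0
    obtain ⟨x, hx⟩ := (hn v h0).2
    exact hx (hv x)
  · by_contra h0
    obtain ⟨x, hx⟩ := (hn v h0).1
    exact hx (hv x)

theorem mem_isom {g : GL ι F} : g ∈ isom f ↔
    ∀ u v, f ((g : Matrix ι ι F) *ᵥ u) ((g : Matrix ι ι F) *ᵥ v) = f u v := Iff.rfl

theorem isom_le_sim : isom f ≤ similarityGroup f := fun _ hg => ⟨1, fun u v => by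
  rw [hg u v]; simp⟩

theorem exists_isom_of_equiv (e : (ι → F) ≃ₗ[F] (ι → F)) (he : ∀ u v, f (e u) (e v) = f u v) :
    ∃ g ∈ isom f, ∀ v, (g : Matrix ι ι F) *ᵥ v = e v := by
  have h : ∀ v, ((CfsgLib.Forms.glEquiv.symm e : GL ι F) : Matrix ι ι F) *ᵥ v = e v := fun v => by
    rw [← CfsgLib.Forms.glEquiv_apply, MulEquiv.apply_symm_apply]
  exact ⟨CfsgLib.Forms.glEquiv.symm e, fun u v => by rw [h, h, he], h⟩

theorem sympForm_symp (m : ℕ) : IsSymplecticForm (sympForm m F) := by
  have h : sympForm m F = fun u v => CfsgLib.Forms.spB (Fin m) F u v := by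
    ext u v; rw [CfsgLib.Forms.spB_eq_sympForm]
  have hA := CfsgLib.Forms.spB_isAlt (Fin m) F
  have hB := CfsgLib.Forms.spB_nondegenerate (Fin m) F
  rw [h]
  refine ⟨⟨by simp, by simp, by simp, by simp⟩, fun v w => (hA.neg_eq w v).symm, hA, fun v hv => ⟨?_, ?_⟩⟩
  · by_contra hc
    push Not at hc
    exact hv (hB.2 v hc)
  · by_contra hc
    push Not at hc
    exact hv (hB.1 v hc)

theorem spGL_eq_isom (m : ℕ) : spGL m F = isom (sympForm m F) := rfl

/-- transitivity on non-zero vectors -/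
theorem exists_isom_map (hf : IsSymplecticForm f) {u v : ι → F} (hu : u ≠ 0) (hv : v ≠ 0) :
    ∃ g ∈ isom f, (g : Matrix ι ι F) *ᵥ u = v := by
  obtain ⟨e, he, -, h⟩ := ClMax.exists_isom_move (toB_alt hf) (toB_nondeg hf.bilinear hf.nondegenerate)
    ⊥ (u := u) (u' := v) (by simpa using hu) (by simpa using hv) (by
      intro h hh
      rw [Submodule.mem_bot] at hh
      simp [hh])
  obtain ⟨g, hg, hge⟩ := exists_isom_of_equiv (f := f) e he
  exact ⟨g, hg, by rw [hge, h]⟩

/-- transvections -/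
theorem exists_tv (hf : IsSymplecticForm f) (x : ι → F) (c : F) :
    ∃ t ∈ isom f, ∀ v, (t : Matrix ι ι F) *ᵥ v = v + (c * f x v) • x := by
  obtain ⟨g, hg, hge⟩ := exists_isom_of_equiv (f := f) (ClMax.tv (toB_alt hf) x c)
    (ClMax.tv_mem (toB_alt hf) x c)
  exact ⟨g, hg, fun v => by rw [hge, ClMax.tv_apply]; rfl⟩

/-- an invariant set of vectors with a non-zero member contains all non-zero vectors -/
theorem forall_of_invariant (hf : IsSymplecticForm f) {S : (ι → F) → Prop}
    (hS : ∀ g ∈ isom f, ∀ v, S v → S ((g : Matrix ι ι F) *ᵥ v)) {u : ι → F} (hu : u ≠ 0)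
    (hSu : S u) {v : ι → F} (hv : v ≠ 0) : S v := by
  obtain ⟨g, hg, rfl⟩ := exists_isom_map hf hu hv
  exact hS g hg u hSu

omit [DecidableEq ι] in
/-- two linear conditions have a non-zero solution in dimension at least three -/
theorem exists_ne_zero_of_three (h3 : 3 ≤ Fintype.card ι) (φ ψ : (ι → F) →ₗ[F] F) :
    ∃ v, v ≠ 0 ∧ φ v = 0 ∧ ψ v = 0 := by
  by_contra hc
  push Not at hc
  have hinj : Function.Injective (φ.prod ψ) := by
    rw [← LinearMap.ker_eq_bot, eq_bot_iff]
    intro v hv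
    rw [LinearMap.mem_ker, LinearMap.prod_apply, Prod.ext_iff] at hv
    by_contra h0
    exact hc v h0 hv.1 hv.2
  have := LinearMap.finrank_le_finrank_of_injective hinj
  simp at this
  omega

omit [Fintype ι] [DecidableEq ι] in
theorem zero_left (hf : IsBilinearForm f) (v : ι → F) : f 0 v = 0 :=
  (toB hf).map_zero₂ v

omit [Fintype ι] [DecidableEq ι] in
theorem zero_right (hf : IsBilinearForm f) (v : ι → F) : f v 0 = 0 :=
  (toB hf v).map_zero

theorem not_le_stab (hf : IsSymplecticForm f) {W : Submodule F (ι → F)} (h0 : W ≠ ⊥)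
    (h1 : W ≠ ⊤) : ¬ isom f ≤ subspaceStabilizer W := by
  intro h
  obtain ⟨u, hu, hu0⟩ := (Submodule.ne_bot_iff W).1 h0
  refine h1 (eq_top_iff.2 fun v _ => ?_)
  by_cases hv : v = 0
  · exact hv ▸ W.zero_mem
  exact forall_of_invariant hf (S := fun v => v ∈ W)
    (fun g hg v hv => (mem_subspaceStabilizer_iff.1 (h hg) v).1 hv) hu0 hu hv

omit [Fintype ι] [DecidableEq ι] in
theorem ne_top_of_ts (hf : IsNondegenerateForm f) {W : Submodule F (ι → F)} (h0 : W ≠ ⊥)
    (h : IsTotallySingularFor f W) : W ≠ ⊤ := by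
  rintro rfl
  obtain ⟨u, -, hu0⟩ := (Submodule.ne_bot_iff _).1 h0
  obtain ⟨x, hx⟩ := (hf u hu0).1
  exact hx (h x trivial u trivial)

theorem not_le_decomp (hf : IsSymplecticForm f) {t k : ℕ} {D : Fin t → Submodule F (ι → F)}
    (hD : IsMDecomposition k D) : ¬ isom f ≤ decompositionStabilizer D := by
  intro h
  have ht := hD.two_le
  have hne : ∀ i, ∃ w ∈ D i, w ≠ 0 := fun i => (Submodule.ne_bot_iff _).1 fun h0 => by
    have := hD.finrank_eq i
    rw [h0, finrank_bot] at this
    exact hD.pos.ne this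
  let i0 : Fin t := ⟨0, by omega⟩
  let i1 : Fin t := ⟨1, by omega⟩
  have h01 : i0 ≠ i1 := by simp [i0, i1]
  obtain ⟨w0, hw0, hw0'⟩ := hne i0
  obtain ⟨w1, hw1, hw1'⟩ := hne i1
  have hdisj : ∀ i j, i ≠ j → ∀ v ∈ D i, v ∈ D j → v = 0 := fun i j hij v hi hj =>
    (Submodule.disjoint_def.1 (hD.indep.pairwiseDisjoint hij)) v hi hj
  have hsum : w0 + w1 ≠ 0 := fun h0 => hw0' (hdisj i0 i1 h01 w0 hw0 (by
    rw [eq_neg_of_add_eq_zero_left h0]; exact (D i1).neg_mem hw1))
  obtain ⟨j, hj⟩ := forall_of_invariant hf (S := fun v => ∃ j, v ∈ D j) (fun g hg v ⟨j, hj⟩ => by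
    obtain ⟨σ, hσ⟩ := h hg
    exact ⟨σ j, hσ j ▸ ⟨v, hj, rfl⟩⟩) hw0' ⟨i0, hw0⟩ hsum
  by_cases hj0 : j = i0
  · subst hj0
    exact hw1' (hdisj _ _ h01 w1 (by simpa using (D _).sub_mem hj hw0) hw1)
  · have h1 : w0 ∈ ⨆ (l) (_ : l ≠ i0), D l := by
      have e : w0 = (w0 + w1) - w1 := by abel
      rw [e]
      exact Submodule.sub_mem _ (Submodule.mem_iSup_of_mem j (Submodule.mem_iSup_of_mem hj0 hj))
        (Submodule.mem_iSup_of_mem i1 (Submodule.mem_iSup_of_mem h01.symm hw1))
    exact hw0' (Submodule.disjoint_def.1 (hD.indep i0) w0 hw0 h1)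

/-- a matrix commuting with all transvections is a scalar -/
theorem scalar_of_comm_isom (hf : IsSymplecticForm f) {a : Matrix ι ι F}
    (h : ∀ x, ∀ v, f x v • a *ᵥ x = f x (a *ᵥ v) • x) : ∃ c : F, a = c • 1 := by
  have h1 : ∀ x, ∃ c : F, a *ᵥ x = c • x := fun x => by
    by_cases hx : x = 0
    · exact ⟨0, by simp [hx]⟩
    obtain ⟨v, hv⟩ := (hf.nondegenerate x hx).2
    refine ⟨(f x v)⁻¹ * f x (a *ᵥ v), ?_⟩
    rw [mul_smul, ← h, smul_smul, inv_mul_cancel₀ hv, one_smul]
  obtain ⟨c, hc⟩ := LinearMap.exists_eq_smul_id_of_forall_notLinearIndependent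
    (f := Matrix.toLin' a) (fun v hv => by
      obtain ⟨c, hc⟩ := h1 v
      rw [Matrix.toLin'_apply, hc, LinearIndependent.pair_iff] at hv
      have := (hv c (-1) (by simp)).2
      simp at this)
  refine ⟨c, matrix_ext_mulVec fun v => ?_⟩
  have := LinearMap.congr_fun hc v
  simpa [Matrix.smul_mulVec] using this

/-- a family of matrices stable under the symplectic group whose non-zero differences have rank at least three
consists of scalars -/
theorem scalar_of_stab (hf : IsSymplecticForm f) {A : Subalgebra F (Matrix ι ι F)}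
    (hst : Stab (isom f) A)
    (hA : ∀ a ∈ A, ∀ φ ψ : (ι → F) →ₗ[F] F, (∀ v, φ v = 0 → ψ v = 0 → a *ᵥ v = 0) → a = 0) :
    A = ⊥ := by
  refine eq_bot_iff.2 fun a ha => mem_bot_iff.2 (scalar_of_comm_isom hf fun x v => ?_)
  obtain ⟨t, ht, htv⟩ := exists_tv hf x 1
  have key : ∀ w, (cj t a - a) *ᵥ ((t : Matrix ι ι F) *ᵥ w) =
      f x (a *ᵥ w) • x - f x w • a *ᵥ x := fun w => by
    rw [sub_mulVec, cj_mulVec, htv, htv, mulVec_add, mulVec_smul, one_mul, one_mul]
    abel
  have h0 := hA (cj t a - a) (A.sub_mem (hst t ht a ha) ha)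
    (toB hf.bilinear x ∘ₗ Matrix.toLin' ((t⁻¹ : GL ι F) : Matrix ι ι F))
    (toB hf.bilinear x ∘ₗ Matrix.toLin' a ∘ₗ Matrix.toLin' ((t⁻¹ : GL ι F) : Matrix ι ι F))
    fun w h1 h2 => by
      simp only [LinearMap.comp_apply, Matrix.toLin'_apply, toB_apply] at h1 h2
      rw [← mulVec_inv_mulVec t w, key, h1, h2, zero_smul, zero_smul, sub_zero]
  have := key v
  rw [h0, zero_mulVec] at this
  exact (sub_eq_zero.1 this.symm).symm

theorem not_le_field (hf : IsSymplecticForm f) (h3 : 3 ≤ Fintype.card ι) {r : ℕ} (hr : 2 ≤ r)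
    {K : Subalgebra F (Matrix ι ι F)} (hK : IsFieldSubalgebra r K) :
    ¬ isom f ≤ subalgebraNormalizer K := by
  intro h
  have : Nonempty ι := Fintype.card_pos_iff.1 (by omega)
  have hb := scalar_of_stab hf (stab_of_le_normalizer h) fun a ha φ ψ hker => by
    by_contra h0
    obtain ⟨b, -, hb⟩ := hK.inv a ha h0
    obtain ⟨v, hv, h1, h2⟩ := exists_ne_zero_of_three h3 φ ψ
    rw [mul_eq_one_comm] at hb
    exact hv (by rw [← one_mulVec v, ← hb, ← mulVec_mulVec, hker v h1 h2, mulVec_zero])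
  have := hK.finrank_eq
  rw [hb, Subalgebra.finrank_bot] at this
  omega

theorem not_le_quad (hf : IsSymplecticForm f) (h3 : 3 ≤ Fintype.card ι) {Q : (ι → F) → F}
    (hp : ∀ u v, QuadraticMap.polar Q u v = f u v) : ¬ isom f ≤ quadSimilarityGroup Q := by
  intro h
  have : Nonempty ι := Fintype.card_pos_iff.1 (by omega)
  have hQ : ∀ g ∈ isom f, ∀ v, Q ((g : Matrix ι ι F) *ᵥ v) = Q v := fun g hg v => by
    obtain ⟨c, hc⟩ := h hg
    have : (c : F) = 1 := mult_unique hf.nondegenerate fun u w => by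
      have h1 := hg u w
      rw [← hp, QuadraticMap.polar, ← mulVec_add, hc, hc, hc] at h1
      have h2 := hp u w
      rw [QuadraticMap.polar] at h2
      linear_combination h1 - (c : F) * h2
    rw [hc, this, one_mul]
  obtain ⟨i⟩ := this
  have hx : (Pi.single i 1 : ι → F) ≠ 0 := by simp
  set x : ι → F := Pi.single i 1
  have hc : ∀ v, v ≠ 0 → Q v = Q x := fun v hv =>
    forall_of_invariant hf (S := fun v => Q v = Q x) (fun g hg v hv => by rw [hQ g hg, hv]) hx rfl hv
  obtain ⟨y, hy, hy1, hy2⟩ := exists_ne_zero_of_three h3 (toB hf.bilinear x) (LinearMap.proj i)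
  have hxy : x + y ≠ 0 := fun h0 => by
    have := congrFun h0 i
    simp only [LinearMap.coe_proj, Function.eval] at hy2
    simp [x, hy2] at this
  have h0 : Q x = 0 := by
    have := hp x y
    rw [QuadraticMap.polar, hc _ hxy, hc _ hy, show f x y = 0 from hy1] at this
    linear_combination -this
  obtain ⟨z, hz⟩ := (hf.nondegenerate x hx).2
  have hz0 : z ≠ 0 := fun h => hz (h ▸ zero_right hf.bilinear x)
  have hxz : x + z ≠ 0 := fun h => hz (by
    rw [eq_neg_of_add_eq_zero_right h, ← neg_one_smul F x, hf.bilinear.smul_right, hf.alternating,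
      mul_zero])
  have := hp x z
  rw [QuadraticMap.polar, hc _ hxz, hc _ hz0, h0] at this
  exact hz (by rw [← this]; ring)

theorem not_le_subfield (hf : IsSymplecticForm f) (h2 : 2 ≤ Fintype.card ι) {F₀ : Subfield F}
    (h0 : F₀ ≠ ⊤) (P : GL ι F) : ¬ isom f ≤ subfieldSubgroup F₀ P := by
  intro h
  obtain ⟨a, ha⟩ : ∃ a, a ∉ F₀ := by
    by_contra hc
    push Not at hc
    exact h0 (eq_top_iff.2 fun x _ => hc x)
  have : Nontrivial ι := Fintype.one_lt_card_iff_nontrivial.1 h2
  obtain ⟨i, j, hij⟩ := exists_pair_ne ι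
  have hP : ∀ v : ι → F, v ≠ 0 → (P : Matrix ι ι F) *ᵥ v ≠ 0 := fun v hv h0 =>
    hv (by rw [← inv_mulVec_mulVec P v, h0, mulVec_zero])
  obtain ⟨c, w, hw, hcw⟩ := forall_of_invariant hf
    (S := fun v => ∃ (c : F) (w : ι → F), (∀ l, w l ∈ F₀) ∧ v = c • (P : Matrix ι ι F) *ᵥ w)
    (fun g hg v ⟨c, w, hw, hv⟩ => by
      obtain ⟨d, hd⟩ := Asch.mem_subfieldSubgroup.1 (h hg)
      refine ⟨c * (d : F)⁻¹, ((d : F) • cj P⁻¹ (g : Matrix ι ι F)) *ᵥ w, fun l => ?_, ?_⟩
      · exact F₀.sum_mem fun k _ => F₀.mul_mem (hd l k) (hw k)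
      · rw [hv, smul_mulVec, mulVec_smul, mulVec_smul, smul_smul, mul_assoc,
          inv_mul_cancel₀ d.ne_zero, mul_one]
        congr 1
        have := cj_mulVec P⁻¹ (g : Matrix ι ι F) ((P : Matrix ι ι F) *ᵥ w)
        rw [inv_mulVec_mulVec] at this
        rw [this, mulVec_inv_mulVec])
    (hP (Pi.single i 1) (by simp))
    ⟨1, Pi.single i 1, fun l => by
      by_cases hl : l = i
      · subst hl; simp
      · simp [hl], by rw [one_smul]⟩
    (hP (Pi.single i 1 + Pi.single j a) fun h0 => by simpa [hij] using congrFun h0 i)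
  rw [← mulVec_smul] at hcw
  have e := congrArg (fun v => ((P⁻¹ : GL ι F) : Matrix ι ι F) *ᵥ v) hcw
  simp only [inv_mulVec_mulVec] at e
  have e1 := congrFun e i
  have e2 := congrFun e j
  simp only [Pi.add_apply, Pi.single_eq_same, Pi.single_eq_of_ne hij, Pi.single_eq_of_ne hij.symm,
    add_zero, zero_add, Pi.smul_apply, smul_eq_mul] at e1 e2
  have hc : c = (w i)⁻¹ := eq_inv_of_mul_eq_one_left e1.symm
  exact ha (e2 ▸ F₀.mul_mem (hc ▸ F₀.inv_mem (hw i)) (hw j))

/-- the vector with coordinates `x` -/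
def vec {κ : Type} (e : ι ≃ κ) (P : GL ι F) (x : κ → F) : ι → F := (P : Matrix ι ι F) *ᵥ (x ∘ e)

theorem vec_injective {κ : Type} (e : ι ≃ κ) (P : GL ι F) : Function.Injective (vec e P) := by
  intro x y h
  have e1 := congrArg (fun v => ((P⁻¹ : GL ι F) : Matrix ι ι F) *ᵥ v) h
  simp only [vec, inv_mulVec_mulVec] at e1
  ext k
  simpa using congrFun e1 (e.symm k)

theorem vec_surjective {κ : Type} (e : ι ≃ κ) (P : GL ι F) : Function.Surjective (vec e P) :=
  fun v => ⟨(((P⁻¹ : GL ι F) : Matrix ι ι F) *ᵥ v) ∘ e.symm, by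
    rw [vec, Function.comp_assoc, e.symm_comp_self, Function.comp_id, mulVec_inv_mulVec]⟩

theorem vec_zero {κ : Type} (e : ι ≃ κ) (P : GL ι F) : vec e P 0 = 0 := by
  simp [vec]

theorem vec_ne_zero {κ : Type} (e : ι ≃ κ) (P : GL ι F) {x : κ → F} (hx : x ≠ 0) :
    vec e P x ≠ 0 := fun h => hx (vec_injective e P (h.trans (vec_zero e P).symm))

theorem coord_vec {κ : Type} [Fintype κ] [DecidableEq κ] (e : ι ≃ κ) (P : GL ι F)
    (a : Matrix κ κ F) (x : κ → F) : coord e P a *ᵥ vec e P x = vec e P (a *ᵥ x) :=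
  coord_mulVec e P a x

/-- pure tensors -/
def tens {κ μ : Type} (x : κ → F) (y : μ → F) : κ × μ → F := fun a => x a.1 * y a.2

theorem kron_tens {κ μ : Type} [Fintype κ] [Fintype μ] (a : Matrix κ κ F) (b : Matrix μ μ F)
    (x : κ → F) (y : μ → F) : (a ⊗ₖ b) *ᵥ tens x y = tens (a *ᵥ x) (b *ᵥ y) := by
  ext ⟨i, j⟩
  simp only [tens, mulVec, dotProduct, kroneckerMap_apply, Fintype.sum_prod_type,
    Finset.sum_mul_sum]
  refine Finset.sum_congr rfl fun k _ => Finset.sum_congr rfl fun l _ => by ring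

theorem not_le_tensor (hf : IsSymplecticForm f) {n₁ n₂ : ℕ} (h1 : 2 ≤ n₁) (h2 : 2 ≤ n₂)
    (e : ι ≃ Fin n₁ × Fin n₂) (P : GL ι F) : ¬ isom f ≤ tensorProductSubgroup n₁ n₂ e P := by
  intro h
  let i0 : Fin n₁ := ⟨0, by omega⟩
  let i1 : Fin n₁ := ⟨1, by omega⟩
  let j0 : Fin n₂ := ⟨0, by omega⟩
  let j1 : Fin n₂ := ⟨1, by omega⟩
  have hi : i0 ≠ i1 := by simp [i0, i1]
  have hj : j0 ≠ j1 := by simp [j0, j1]
  obtain ⟨x, y, hxy⟩ := forall_of_invariant hf (S := fun v => ∃ x y, v = vec e P (tens x y))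
    (fun g hg v ⟨x, y, hv⟩ => by
      obtain ⟨a, b, hab⟩ := mem_tensorProductSubgroup'.1 (h hg)
      exact ⟨_, _, by rw [hv, hab, coord_vec, kron_tens]⟩)
    (vec_ne_zero e P (x := tens (Pi.single i0 1) (Pi.single j0 1)) fun h0 => by
      simpa [tens] using congrFun h0 (i0, j0)) ⟨_, _, rfl⟩
    (vec_ne_zero e P (x := Pi.single (i0, j0) 1 + Pi.single (i1, j1) 1) fun h0 => by
      simpa [hi] using congrFun h0 (i0, j0))
  have e1 := vec_injective e P hxy
  have a1 := congrFun e1 (i0, j0)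
  have a2 := congrFun e1 (i1, j1)
  have a3 := congrFun e1 (i0, j1)
  simp only [tens, Pi.add_apply, Pi.single_apply, Prod.mk.injEq, hi, hi.symm, hj, hj.symm, and_self,
    if_true, if_false, add_zero, zero_add, false_and, and_false] at a1 a2 a3
  rcases mul_eq_zero.1 a3.symm with h0 | h0
  · simp [h0] at a1
  · simp [h0] at a2

/-- pure tensors with `t` factors -/
def tensPow {k t : ℕ} (x : Fin t → Fin k → F) : (Fin t → Fin k) → F := fun a => ∏ i, x i (a i)

theorem pure_vec_of_mem {k t : ℕ} {g : GL (Fin t → Fin k) F} (hg : g ∈ tensorWreathStandard k t F) :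
    ∀ x : Fin t → Fin k → F, ∃ y : Fin t → Fin k → F,
      (g : Matrix (Fin t → Fin k) (Fin t → Fin k) F) *ᵥ tensPow x = tensPow y := by
  have key : ∀ g : GL (Fin t → Fin k) F, (IsPureTensor k t g ∨ IsFactorPermutation k t g) →
      ∀ x : Fin t → Fin k → F, ∃ y : Fin t → Fin k → F,
      (g : Matrix (Fin t → Fin k) (Fin t → Fin k) F) *ᵥ tensPow x = tensPow y := by
    rintro g (⟨gs, hgs⟩ | ⟨σ, hσ⟩) x
    · refine ⟨fun i => (gs i : Matrix (Fin k) (Fin k) F) *ᵥ x i, funext fun a => ?_⟩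
      simp only [tensPow, mulVec, dotProduct, hgs, ← Finset.prod_mul_distrib]
      rw [Fintype.prod_sum]
    · refine ⟨fun i => x (σ.symm i), funext fun a => ?_⟩
      simp only [tensPow, mulVec, dotProduct, hσ, ite_mul, one_mul, zero_mul, Finset.sum_ite_eq',
        Finset.mem_univ, if_true, Function.comp_apply]
      exact Fintype.prod_equiv σ _ _ fun i => by simp
  have inv : ∀ g : GL (Fin t → Fin k) F, (IsPureTensor k t g ∨ IsFactorPermutation k t g) →
      (IsPureTensor k t g⁻¹ ∨ IsFactorPermutation k t g⁻¹) := by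
    rintro g (⟨gs, hgs⟩ | ⟨σ, hσ⟩)
    · obtain rfl : g = pureU gs := Units.ext (by ext x y; rw [hgs, coe_pureU, pure_apply])
      exact Or.inl ⟨gs⁻¹, fun x y => rfl⟩
    · obtain rfl : g = permU k F σ := Units.ext (by ext x y; rw [hσ]; rfl)
      exact Or.inr ⟨σ.symm, fun x y => rfl⟩
  induction hg using Subgroup.closure_induction'' with
  | mem g hg => exact key g hg
  | inv_mem g hg => exact key _ (inv g hg)
  | one => exact fun x => ⟨x, by simp⟩
  | mul a b _ _ ha hb =>
    intro x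
    obtain ⟨y, hy⟩ := hb x
    obtain ⟨z, hz⟩ := ha y
    exact ⟨z, by rw [Units.val_mul, ← mulVec_mulVec, hy, hz]⟩

theorem not_le_wreath (hf : IsSymplecticForm f) {k t : ℕ} (h1 : 2 ≤ k) (h2 : 2 ≤ t)
    (e : ι ≃ (Fin t → Fin k)) (P : GL ι F) : ¬ isom f ≤ tensorWreathSubgroup k t e P := by
  intro h
  let i0 : Fin k := ⟨0, by omega⟩
  let i1 : Fin k := ⟨1, by omega⟩
  let j0 : Fin t := ⟨0, by omega⟩
  let j1 : Fin t := ⟨1, by omega⟩
  have hi : i0 ≠ i1 := by simp [i0, i1]
  have hj : j0 ≠ j1 := by simp [j0, j1]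
  let a : Fin t → Fin k := fun _ => i0
  let b : Fin t → Fin k := fun _ => i1
  let c : Fin t → Fin k := Function.update a j0 i1
  have hab : a ≠ b := fun h => hi (congrFun h j0)
  have hca : c ≠ a := fun h => hi (by simpa [c, a] using (congrFun h j0).symm)
  have hcb : c ≠ b := fun h => hi (by simpa [c, a, b, hj.symm] using (congrFun h j1))
  obtain ⟨x, hx⟩ := forall_of_invariant hf (S := fun v => ∃ x, v = vec e P (tensPow x))
    (fun g hg v ⟨x, hv⟩ => by
      obtain ⟨y, hy⟩ := pure_vec_of_mem (mem_tensorWreathSubgroup.1 (h hg)) x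
      refine ⟨y, ?_⟩
      rw [hv, ← hy, ← coord_vec, coe_coordGL_symm, AlgEquiv.apply_symm_apply])
    (vec_ne_zero e P (x := tensPow fun _ _ => 1) fun h0 => by
      simpa [tensPow] using congrFun h0 a) ⟨_, rfl⟩
    (vec_ne_zero e P (x := Pi.single a 1 + Pi.single b 1) fun h0 => by
      simpa [hab] using congrFun h0 a)
  have e1 := vec_injective e P hx
  have a1 := congrFun e1 a
  have a2 := congrFun e1 b
  have a3 := congrFun e1 c
  simp only [tensPow, Pi.add_apply, Pi.single_apply, hab, hab.symm, hca, hcb,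
    if_true, if_false, add_zero, zero_add] at a1 a2 a3
  obtain ⟨j, -, h0⟩ := Finset.prod_eq_zero_iff.1 a3.symm
  by_cases hj' : j = j0
  · subst hj'
    rw [Finset.prod_eq_zero (Finset.mem_univ j0) (by simpa [c] using h0)] at a2
    exact one_ne_zero a2
  · rw [Finset.prod_eq_zero (Finset.mem_univ j) (by simpa [c, hj'] using h0)] at a1
    exact one_ne_zero a1

/-- a `2`-group of symplectic type, exponent four and centre of order two is extraspecial -/
theorem extraspecial_of_type {R : Subgroup (GL ι F)} [Finite R] (hR : IsSymplecticTypeGroup 2 R)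
    (hZ : Nat.card (Subgroup.center R) = 2) : IsExtraspecial 2 R := by
  have : Fact (Nat.Prime 2) := ⟨Nat.prime_two⟩
  have hexp := hR.exponent_eq
  have h4 : ∀ u : R, u ∈ Subgroup.center R → u ^ 2 = 1 := fun u hu => by
    have := pow_card_eq_one' (x := (⟨u, hu⟩ : Subgroup.center R))
    rw [hZ] at this
    exact congrArg Subtype.val this
  rcases CfsgLib.PGroup.symplectic_type_aux hR.pGroup hR.cyclic_of_characteristic with
    h | h | ⟨E, u, m, hu, hm, hchar, -, -, huE, hc, -⟩
  · exfalso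
    have : Monoid.exponent R ∣ 2 := Monoid.exponent_dvd_of_forall_pow_eq_one fun g => h4 g (by
      rw [Subgroup.mem_center_iff]
      intro x
      exact h.isMulCommutative.is_comm.comm x g)
    rw [hexp] at this
    norm_num at this
  · exact h
  · exfalso
    have hd := Monoid.order_dvd_exponent u
    rw [hu, hexp] at hd
    have hm2 : m = 2 := by
      have := (Nat.pow_dvd_pow_iff_le_right (k := m) (l := 2) one_lt_two).1 (by simpa using hd)
      omega
    subst hm2
    have hu2 : u ^ 2 ∈ Subgroup.center R := by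
      rw [Subgroup.mem_center_iff]
      intro g
      have hn : (Subgroup.zpowers u).Normal := inferInstance
      obtain ⟨z, hz⟩ := hn.conj_mem u (Subgroup.mem_zpowers u) g
      have ho : orderOf (u ^ z) = 4 := by
        have hz' : u ^ z = g * u * g⁻¹ := hz
        rw [hz', ← MulAut.conj_apply, MulEquiv.orderOf_eq, hu]; rfl
      have hu4 : u ^ 4 = 1 := by rw [show 4 = 2 ^ 2 from rfl, ← hu]; exact pow_orderOf_eq_one u
      have hz' : u ^ z = g * u * g⁻¹ := hz
      rcases Int.even_or_odd' z with ⟨w, rfl | rfl⟩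
      · exfalso
        have : (u ^ (2 * w)) ^ 2 = 1 := by
          rw [← _root_.zpow_natCast, ← _root_.zpow_mul, show 2 * w * ((2 : ℕ) : ℤ) = (4 : ℕ) * w by push_cast; ring,
            _root_.zpow_mul, _root_.zpow_natCast, hu4, _root_.one_zpow]
        have := orderOf_dvd_of_pow_eq_one this
        rw [ho] at this
        norm_num at this
      · have : g * u ^ 2 * g⁻¹ = u ^ 2 := by
          rw [← conj_pow, ← hz', ← _root_.zpow_natCast, ← _root_.zpow_mul,
            show (2 * w + 1) * ((2 : ℕ) : ℤ) = (4 : ℕ) * w + (2 : ℕ) by push_cast; ring,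
            _root_.zpow_add, _root_.zpow_mul, _root_.zpow_natCast, hu4, _root_.one_zpow, one_mul, _root_.zpow_natCast]
        rw [mul_inv_eq_iff_eq_mul] at this
        exact this
    have htop : Subgroup.centralizer ({u ^ 2} : Set R) = ⊤ := by
      rw [eq_top_iff]
      intro g _
      rw [Subgroup.mem_centralizer_singleton_iff]
      exact (Subgroup.mem_center_iff.1 hu2 g)
    have hle : E ⊔ Subgroup.zpowers u ≤ Subgroup.centralizer ({u} : Set R) := by
      refine sup_le (fun x hx => ?_) ?_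
      · rw [Subgroup.mem_centralizer_singleton_iff]
        exact huE x hx
      · rw [Subgroup.zpowers_le, Subgroup.mem_centralizer_singleton_iff]
    rw [← hc, htop] at hle
    have := orderOf_dvd_of_pow_eq_one (h4 u (Subgroup.mem_center_iff.2 fun g =>
      Subgroup.mem_centralizer_singleton_iff.1 (hle (Subgroup.mem_top g))))
    rw [hu] at this
    norm_num at this

theorem mem_center_iff_scalar [Nonempty ι] {R : Subgroup (GL ι F)}
    (habs : ActsAbsolutelyIrreducibly (matrixSet R)) (x : R) :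
    x ∈ Subgroup.center R ↔ (x : GL ι F) ∈ scalars ι F := by
  constructor
  · intro hx
    refine mem_scalars_of_comm_env (span_eq_top_of_absIrred habs) fun y hy => ?_
    exact (congrArg Subtype.val (Subgroup.mem_center_iff.1 hx ⟨y, hy⟩)).symm
  · intro hx
    exact Subgroup.mem_center_iff.2 fun y => Subtype.ext (mul_comm_of_mem_scalars hx y).symm

theorem card_eq_of_extraspecial [Nonempty ι] {R : Subgroup (GL ι F)} [Finite R]
    (hR : IsExtraspecial 2 R) (habs : ActsAbsolutelyIrreducibly (matrixSet R)) {k : ℕ}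
    (hk : Nat.card R = 2 ^ (1 + 2 * k)) : Fintype.card ι = 2 ^ k := by
  have henv := span_eq_top_of_absIrred habs
  have h := card_quotient_eq henv (mem_center_iff_scalar habs) fun x hx hxs =>
    trace_eq_zero_of_comm henv hxs fun y hy => by
      have : (⟨y, hy⟩ * ⟨x, hx⟩ * ⟨y, hy⟩⁻¹ * ⟨x, hx⟩⁻¹ : R) ∈ Subgroup.center R := by
        rw [← hR.1.2.2]
        exact Subgroup.commutator_mem_commutator (Subgroup.mem_top _) (Subgroup.mem_top _)
      exact (mem_center_iff_scalar habs _).1 this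
  have h2 := Subgroup.card_eq_card_quotient_mul_card_subgroup (Subgroup.center R)
  rw [h, hR.2, hk, show 2 ^ (1 + 2 * k) = (2 ^ k) ^ 2 * 2 by ring] at h2
  exact (Nat.pow_left_injective two_ne_zero (Nat.eq_of_mul_eq_mul_right two_pos h2)).symm

theorem not_le_extra (hf : IsSymplecticForm f) (h3 : 3 ≤ Fintype.card ι) (h2 : (2 : F) ≠ 0)
    {R : Subgroup (GL ι F)} [Finite R] (hR : IsExtraspecial 2 R)
    (habs : ActsAbsolutelyIrreducibly (matrixSet R)) (hs : R ≤ similarityGroup f) :
    ¬ isom f ≤ subgroupNormalizer R := by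
  intro h
  have : Nonempty ι := Fintype.card_pos_iff.1 (by omega)
  have : Fact (Nat.Prime 2) := ⟨Nat.prime_two⟩
  have hb := hf.bilinear
  obtain ⟨i⟩ := ‹Nonempty ι›
  have hx : (Pi.single i 1 : ι → F) ≠ 0 := by simp
  set x : ι → F := Pi.single i 1
  obtain ⟨t, ht, htv⟩ := exists_tv hf x 1
  have hti : ∀ v, ((t⁻¹ : GL ι F) : Matrix ι ι F) *ᵥ v = v - f x v • x := fun v => by
    have : (t : Matrix ι ι F) *ᵥ (v - f x v • x) = v := by
      rw [htv, sub_eq_add_neg, hb.add_right, ← neg_smul, hb.smul_right, hf.alternating]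
      simp
    rw [← this, inv_mulVec_mulVec, this]
  have key : ∀ r ∈ R, t * r = r * t := fun r hr => by
    obtain ⟨c, hc⟩ := hs (R.inv_mem hr)
    have hsR : t * r * t⁻¹ * r⁻¹ ∈ R :=
      R.mul_mem ((Subgroup.mem_normalizer_iff.1 (h ht) r).1 hr) (R.inv_mem hr)
    set s := t * r * t⁻¹ * r⁻¹ with hsdef
    set y := (r : Matrix ι ι F) *ᵥ x with hy
    set B := toB hb with hB
    have hA : B.IsAlt := toB_alt hf
    have hsv : ∀ v, (s : Matrix ι ι F) *ᵥ v =
        v - ((c : F) * B y v) • y + (B x v - (c : F) * B y v * B x y) • x := fun v => by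
      have h1 : f x (((r⁻¹ : GL ι F) : Matrix ι ι F) *ᵥ v) = (c : F) * B y v := by
        rw [toB_apply, ← hc, hy, inv_mulVec_mulVec]
      rw [hsdef, Units.val_mul, Units.val_mul, Units.val_mul, ← mulVec_mulVec, ← mulVec_mulVec,
        ← mulVec_mulVec, hti, mulVec_sub, mulVec_inv_mulVec, mulVec_smul, ← hy, htv, h1, one_mul,
        ← toB_apply hb, ← hB, map_sub, map_smul, smul_eq_mul]
    have hsq : ∀ v, (s : Matrix ι ι F) *ᵥ ((s : Matrix ι ι F) *ᵥ v) = v := by
      have h1 := CfsgLib.PGroup.pow_mem_frattini hR.1.1 (⟨s, hsR⟩ : R)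
      rw [hR.1.2.1, mem_center_iff_scalar habs, mem_scalars_iff] at h1
      obtain ⟨d, hd⟩ := h1
      have h2 : ∀ v, (s : Matrix ι ι F) *ᵥ ((s : Matrix ι ι F) *ᵥ v) = (d : F) • v := fun v => by
        rw [mulVec_mulVec, ← one_mulVec v, ← smul_mulVec, ← hd, one_mulVec]
        simp [sq]
      obtain ⟨w, hw, hw1, hw2⟩ := exists_ne_zero_of_three h3 (B x) (B y)
      have h3 : (s : Matrix ι ι F) *ᵥ w = w := by rw [hsv, hw1, hw2]; simp
      have h4 := h2 w
      rw [h3, h3] at h4
      have : (d : F) = 1 := smul_left_injective F hw (h4.symm.trans (one_smul F w).symm)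
      intro v
      rw [h2, this, one_smul]
    have hyx : B y x = -B x y := (hA.neg_eq x y).symm
    have ha : B x y = 0 := by
      have h1 := congrArg (B x) (hsq y)
      rw [hsv, hsv] at h1
      simp only [map_add, map_sub, map_smul, smul_eq_mul, hA.self_eq_zero, hyx] at h1
      have : (c : F) * B x y ^ 3 = 0 := by linear_combination h1
      exact pow_eq_zero_iff three_ne_zero |>.1 ((mul_eq_zero.1 this).resolve_left c.ne_zero)
    have h1 : s = 1 := Units.ext (matrix_ext_mulVec fun v => by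
      have h1 := hsq v
      rw [hsv ((s : Matrix ι ι F) *ᵥ v)] at h1
      have e1 : B y ((s : Matrix ι ι F) *ᵥ v) = B y v := by
        rw [hsv]; simp only [map_add, map_sub, map_smul, smul_eq_mul, hA.self_eq_zero, hyx, ha]; ring
      have e2 : B x ((s : Matrix ι ι F) *ᵥ v) = B x v := by
        rw [hsv]; simp only [map_add, map_sub, map_smul, smul_eq_mul, hA.self_eq_zero, ha]; ring
      rw [e1, e2] at h1
      have h4 := hsv v
      have : (2 : F) • ((s : Matrix ι ι F) *ᵥ v) = (2 : F) • v := by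
        rw [two_smul, two_smul]
        linear_combination (exp := 1) h1 + h4
      rw [Units.val_one, one_mulVec]
      exact smul_right_injective _ h2 this)
    rw [hsdef, mul_inv_eq_one, mul_inv_eq_iff_eq_mul] at h1
    exact h1
  obtain ⟨d, hd⟩ := (mem_scalars_iff t).1 (mem_scalars_of_comm_env (span_eq_top_of_absIrred habs) key)
  obtain ⟨v, hv⟩ := (hf.nondegenerate x hx).2
  have h1 := htv x
  rw [hd, smul_mulVec, one_mulVec, hf.alternating, mul_zero, zero_smul, add_zero] at h1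
  have hd1 : (d : F) = 1 := smul_left_injective F hx (h1.trans (one_smul F x).symm)
  have h4 := htv v
  rw [hd, smul_mulVec, one_mulVec, hd1, one_smul, one_mul, left_eq_add] at h4
  exact hx ((smul_eq_zero.1 h4).resolve_left hv)

/-! ### Dimensions -/

omit [DecidableEq ι] in
theorem even_of_nondegOn (hf : IsSymplecticForm f) {W : Submodule F (ι → F)}
    (hW : IsNondegenerateOn f W) : Even (Module.finrank F W) := by
  refine CfsgLib.Forms.even_finrank_of_alt ((toB hf.bilinear).restrict W) (fun v => hf.alternating v)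
    ⟨fun v hv => ?_, fun v hv => ?_⟩
  · by_contra h0
    obtain ⟨x, hx, hx'⟩ := (hW v v.2 fun h => h0 (Subtype.ext h)).2
    exact hx' (hv ⟨x, hx⟩)
  · by_contra h0
    obtain ⟨x, hx, hx'⟩ := (hW v v.2 fun h => h0 (Subtype.ext h)).1
    exact hx' (hv ⟨x, hx⟩)

omit [DecidableEq ι] in
theorem even_of_decomp (hf : IsSymplecticForm f) {t k : ℕ} {D : Fin t → Submodule F (ι → F)}
    (hD : IsNondegenerateMDecomposition f k D) : Even k := by
  have := hD.decomp.two_le
  rw [← hD.decomp.finrank_eq ⟨0, by omega⟩]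
  exact even_of_nondegOn hf (hD.nondegenerate _)

theorem two_mul_dvd_of_field [Finite F] [Nonempty ι] (hf : IsSymplecticForm f) {r : ℕ}
    {K : Subalgebra F (Matrix ι ι F)} (hK : IsFieldSubalgebra r K) (hsa : IsSelfAdjointFor f K)
    (halt : ∀ k ∈ K, ∀ v, f (k *ᵥ v) v = 0) : 2 * r ∣ Fintype.card ι := by
  refine ClMax.with_ext_field hK fun L _ _ _ _ _ hr hd h1 _ _ => ?_
  have : Module.Finite F L := Module.Finite.of_finite
  have : Finite (ι → F) := inferInstance
  have : Module.Finite L (ι → F) := Module.Finite.of_finite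
  obtain ⟨l, hl⟩ : ∃ l : L →ₗ[F] F, l ≠ 0 := by
    obtain ⟨l, hl⟩ := Module.Projective.exists_dual_ne_zero F (one_ne_zero (α := L))
    exact ⟨l, fun h => hl (by simp [h])⟩
  obtain ⟨g, hg1, hg2, -⟩ := ClMax.exists_extForm (K := L) (toB_nondeg hf.bilinear hf.nondegenerate)
    (fun k u v => by
      obtain ⟨a, ha, h⟩ := h1 k
      rw [h, h]; exact hsa a ha u v)
    (fun k v => by
      obtain ⟨a, ha, h⟩ := h1 k
      rw [h]; exact halt a ha v) hl
  obtain ⟨n, hn⟩ := CfsgLib.Forms.even_finrank_of_alt g hg1 hg2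
  exact ⟨n, by rw [← hd, hn]; ring⟩

end CfsgLib.CasesSp
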