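import Mathlib
import Cfsg.Agent.Lib.CasesSp.Basic
import Cfsg.Agent.Lib.ClMax.Basic
import Cfsg.Agent.Lib.Forms.SymmDisc

/-! Geometric subgroups of symplectic groups over the fields with two and three elements that lie in
other proper subgroups. -/

set_option autoImplicit false

namespace CfsgLib.CasesSp

open Cfsg Cfsg.Geo Matrix CfsgLib.Asch
open scoped MatrixGroups Kronecker

variable {ι : Type} [Fintype ι] [DecidableEq ι] {F : Type*} [Field F]
variable {f : (ι → F) → (ι → F) → F} {H : Subgroup (GL ι F)}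

theorem cases_two [Fintype F] (h : Fintype.card F = 2) (x : F) : x = 0 ∨ x = 1 := by
  have := FiniteField.pow_card x
  rw [h] at this
  have h2 : x * (x - 1) = 0 := by linear_combination this
  simpa [sub_eq_zero] using h2

theorem two_eq_zero [Fintype F] (h : Fintype.card F = 2) : (2 : F) = 0 := by
  have := FiniteField.cast_card_eq_zero F
  rw [h] at this
  exact_mod_cast this

theorem cases_three [Fintype F] (h : Fintype.card F = 3) (x : F) : x = 0 ∨ x = 1 ∨ x = -1 := by
  have := FiniteField.pow_card x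
  rw [h] at this
  have h2 : x * ((x - 1) * (x + 1)) = 0 := by linear_combination this
  simpa [sub_eq_zero, add_eq_zero_iff_eq_neg] using h2

theorem three_eq_zero [Fintype F] (h : Fintype.card F = 3) : (3 : F) = 0 := by
  have := FiniteField.cast_card_eq_zero F
  rw [h] at this
  exact_mod_cast this

theorem two_ne_zero_of_three (h : (3 : F) = 0) : (2 : F) ≠ 0 := fun h2 =>
  one_ne_zero (α := F) (by linear_combination h - h2)

theorem sq_eq_one_of_three [Fintype F] (h : Fintype.card F = 3) {x : F} (hx : x ≠ 0) : x ^ 2 = 1 := by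
  rcases cases_three h x with rfl | rfl | rfl
  · exact (hx rfl).elim
  · simp
  · simp

omit [Fintype ι] [DecidableEq ι] in
theorem exists_sum_of_decomp {t k : ℕ} {D : Fin t → Submodule F (ι → F)}
    (hD : IsMDecomposition k D) (v : ι → F) : ∃ a : Fin t → ι → F, (∀ i, a i ∈ D i) ∧ v = ∑ i, a i := by
  have hv : v ∈ iSup D := hD.iSup_eq_top ▸ Submodule.mem_top
  induction hv using Submodule.iSup_induction' with
  | mem i x hx =>
    refine ⟨Pi.single i x, fun j => ?_, by simp⟩
    by_cases h : j = i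
    · subst h; simpa using hx
    · simp [h]
  | zero => exact ⟨0, fun i => (D i).zero_mem, by simp⟩
  | add x y _ _ hx hy =>
    obtain ⟨a, ha, rfl⟩ := hx
    obtain ⟨b, hb, rfl⟩ := hy
    exact ⟨a + b, fun i => (D i).add_mem (ha i) (hb i), by simp [Finset.sum_add_distrib]⟩

omit [DecidableEq ι] in
/-- in a two-dimensional subspace, two vectors killed by a functional that is not zero on it are proportional -/
theorem exists_smul_of_two {W : Submodule F (ι → F)} (hW : Module.finrank F W = 2)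
    (φ : (ι → F) →ₗ[F] F) (hφ : ∃ w ∈ W, φ w ≠ 0) {a e : ι → F} (ha : a ∈ W) (he : e ∈ W)
    (he0 : e ≠ 0) (h1 : φ a = 0) (h2 : φ e = 0) : ∃ c : F, a = c • e := by
  by_contra hc
  push Not at hc
  have hli : LinearIndependent F ![e, a] := by
    rw [LinearIndependent.pair_iff' he0]
    exact fun c h => hc c h.symm
  have hsp : Submodule.span F (Set.range ![e, a]) = W := by
    refine Submodule.eq_of_le_of_finrank_eq ?_ ?_
    · rw [Submodule.span_le]
      rintro _ ⟨i, rfl⟩
      fin_cases i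
      · exact he
      · exact ha
    · rw [finrank_span_eq_card hli, hW]; simp
  obtain ⟨w, hw, hw'⟩ := hφ
  have : W ≤ LinearMap.ker φ := by
    rw [← hsp, Submodule.span_le]
    rintro _ ⟨i, rfl⟩
    fin_cases i
    · exact h2
    · exact h1
  exact hw' (this hw)

/-- over the field with two elements the stabiliser of a decomposition into non-degenerate planes fixes a quadratic
form -/
theorem quad_of_two [Fintype F] [DecidableEq (ι → F)] (hq : Fintype.card F = 2) (hf : IsSymplecticForm f) {t : ℕ}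
    {D : Fin t → Submodule F (ι → F)} (hD : IsNondegenerateMDecomposition f 2 D) :
    ∃ Q : (ι → F) → F, IsNondegenerateQuadraticForm Q ∧
      (∀ u v, QuadraticMap.polar Q u v = f u v) ∧
      (∀ g ∈ decompositionStabilizer D ⊓ isom f, ∀ v, Q ((g : Matrix ι ι F) *ᵥ v) = Q v) ∧
      ∀ a : Fin t → ι → F, (∀ i, a i ∈ D i) →
        Q (∑ i, a i) = ∑ i, if a i = 0 then 0 else 1 := by
  classical
  have h2 := two_eq_zero hq
  set B := toB hf.bilinear
  have hA : B.IsAlt := toB_alt hf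
  let Q : (ι → F) → F := fun v => ∑ i, if ∀ u ∈ D i, f u v = 0 then 0 else 1
  have hsum : ∀ (a : Fin t → ι → F), (∀ i, a i ∈ D i) → ∀ i, ∀ u ∈ D i,
      f u (∑ j, a j) = f u (a i) := fun a ha i u hu => by
    rw [← toB_apply hf.bilinear, map_sum, Finset.sum_eq_single i]
    · rfl
    · exact fun j _ hj => hD.orthogonal i j (Ne.symm hj) u hu _ (ha j)
    · simp
  have hQ : ∀ a : Fin t → ι → F, (∀ i, a i ∈ D i) →
      Q (∑ i, a i) = ∑ i, if a i = 0 then 0 else 1 := fun a ha => by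
    refine Finset.sum_congr rfl fun i _ => if_congr ⟨fun h => ?_, fun h u hu => ?_⟩ rfl rfl
    · by_contra h0
      obtain ⟨x, hx, hx'⟩ := (hD.nondegenerate i _ (ha i) h0).1
      exact hx' (by rw [← hsum a ha i x hx]; exact h x hx)
    · rw [hsum a ha i u hu, h, zero_right hf.bilinear]
  have hp : ∀ u v, QuadraticMap.polar Q u v = f u v := fun u v => by
    obtain ⟨a, ha, rfl⟩ := exists_sum_of_decomp hD.decomp u
    obtain ⟨b, hb, rfl⟩ := exists_sum_of_decomp hD.decomp v
    rw [QuadraticMap.polar, ← Finset.sum_add_distrib,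
      hQ _ fun i => (D i).add_mem (ha i) (hb i), hQ a ha, hQ b hb, ← Finset.sum_sub_distrib,
      ← Finset.sum_sub_distrib, ← toB_apply hf.bilinear, LinearMap.map_sum₂]
    refine Finset.sum_congr rfl fun i _ => ?_
    rw [toB_apply, hsum b hb i _ (ha i)]
    by_cases h1 : a i = 0
    · simp [h1, zero_left hf.bilinear]
    by_cases h3 : b i = 0
    · simp [h3, zero_right hf.bilinear]
    have hneg : ∀ x : ι → F, -x = x := fun x => by
      ext l; simp only [Pi.neg_apply]; linear_combination (-x l) * h2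
    by_cases h4 : a i + b i = 0
    · have : a i = b i := by rw [eq_neg_of_add_eq_zero_left h4, hneg]
      simp only [h4, h1, h3, if_true, if_false]
      rw [this, hf.alternating]
      linear_combination -h2
    · simp only [h4, h1, h3, if_false]
      rcases cases_two hq (f (a i) (b i)) with h0 | h0
      · exfalso
        obtain ⟨c, hc⟩ := exists_smul_of_two (hD.decomp.finrank_eq i) (B (a i))
          (hD.nondegenerate i _ (ha i) h1).2 (hb i) (ha i) h1 h0 (hA _)
        rcases cases_two hq c with rfl | rfl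
        · exact h3 (by simpa using hc)
        · refine h4 ?_
          rw [hc, one_smul, add_eq_zero_iff_eq_neg, hneg]
      · rw [h0]; linear_combination -h2
  have hpe : QuadraticMap.polar Q = f := funext fun u => funext fun v => hp u v
  refine ⟨Q, ⟨fun c v => ?_, hpe ▸ hf.bilinear, hpe ▸ hf.nondegenerate⟩, hp, fun g hg v => ?_, hQ⟩
  · rcases cases_two hq c with rfl | rfl
    · simp [Q, zero_right hf.bilinear]
    · simp
  · obtain ⟨⟨σ, hσ⟩, hg⟩ := hg
    symm
    refine Fintype.sum_equiv σ _ _ fun i => ?_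
    refine if_congr ⟨fun h u hu => ?_, fun h u hu => ?_⟩ rfl rfl
    · rw [← hσ i] at hu
      obtain ⟨w, hw, rfl⟩ := hu
      exact (hg w v).trans (h w hw)
    · rw [← hg u v]
      exact h _ (hσ i ▸ ⟨u, hu, rfl⟩)

/-- a group permuting the lines of an orthogonal frame normalises the diagonal algebra -/
theorem not_noComm_of_frame (hf : IsSymmetricForm f) {κ : Type} [Fintype κ] [DecidableEq κ]
    [Nontrivial κ] (b : Module.Basis κ F (ι → F)) (hb : ∀ i j, i ≠ j → f (b i) (b j) = 0)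
    (hH : ∀ g ∈ H, ∀ i, ∃ j, ∃ c : F, (g : Matrix ι ι F) *ᵥ b i = c • b j) : ¬ NoComm f H := by
  intro hc
  let C : Subalgebra F (Matrix ι ι F) :=
    { carrier := {a | ∀ i, ∃ c : F, a *ᵥ b i = c • b i}
      mul_mem' := fun {x y} hx hy i => by
        obtain ⟨c, hc⟩ := hx i
        obtain ⟨d, hd⟩ := hy i
        exact ⟨d * c, by rw [← mulVec_mulVec, hd, mulVec_smul, hc, smul_smul]⟩
      add_mem' := fun {x y} hx hy i => by
        obtain ⟨c, hc⟩ := hx i
        obtain ⟨d, hd⟩ := hy i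
        exact ⟨c + d, by rw [add_mulVec, hc, hd, add_smul]⟩
      algebraMap_mem' := fun c i => ⟨c, by rw [Algebra.algebraMap_eq_smul_one, smul_mulVec, one_mulVec]⟩ }
  have hext : ∀ x y : Matrix ι ι F, (∀ i, x *ᵥ b i = y *ᵥ b i) → x = y := fun x y h =>
    Matrix.toLin'.injective (b.ext fun i => by simpa using h i)
  have := hc C (fun g hg a ha i => ?_) (fun a ha => ⟨a, ha, fun u v => ?_⟩) fun x hx y hy => hext _ _ fun i => ?_
  · obtain ⟨i, j, hij⟩ := exists_pair_ne κ
    have h1 : LinearMap.toMatrix' (b.constr F (Pi.single i (b i))) ∈ C := fun l => by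
      rw [LinearMap.toMatrix'_mulVec, b.constr_basis]
      by_cases h : l = i
      · subst h; exact ⟨1, by simp⟩
      · exact ⟨0, by simp [h]⟩
    rw [this, mem_bot_iff] at h1
    obtain ⟨c, h1⟩ := h1
    have e1 := congrArg (· *ᵥ b i) h1
    have e2 := congrArg (· *ᵥ b j) h1
    simp only [LinearMap.toMatrix'_mulVec, b.constr_basis, smul_mulVec, one_mulVec, Pi.single_eq_same,
      Pi.single_eq_of_ne hij.symm] at e1 e2
    rcases smul_eq_zero.1 e2.symm with h | h
    · exact b.ne_zero i (by rw [e1, h, zero_smul])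
    · exact b.ne_zero j h
  · obtain ⟨j, c, hj⟩ := hH g⁻¹ (H.inv_mem hg) i
    obtain ⟨d, hd⟩ := ha j
    refine ⟨d, ?_⟩
    conv_lhs => rw [← mulVec_inv_mulVec g (b i), cj_mulVec, hj, mulVec_smul, hd, smul_comm, ← hj,
      mulVec_smul, mulVec_inv_mulVec]
  · have : (toB hf.bilinear).compl₁₂ (Matrix.toLin' a) LinearMap.id =
        (toB hf.bilinear).compl₁₂ LinearMap.id (Matrix.toLin' a) := by
      refine b.ext fun i => b.ext fun j => ?_
      obtain ⟨c, hc⟩ := ha i
      obtain ⟨d, hd⟩ := ha j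
      simp only [LinearMap.compl₁₂_apply, Matrix.toLin'_apply, LinearMap.id_apply, hc, hd, map_smul,
        LinearMap.smul_apply, toB_apply, smul_eq_mul]
      by_cases h : i = j
      · subst h
        rw [smul_left_injective F (b.ne_zero i) (hc.symm.trans hd)]
      · simp [hb i j h]
    exact LinearMap.congr_fun₂ this u v
  · obtain ⟨c, hc⟩ := hx i
    obtain ⟨d, hd⟩ := hy i
    rw [← mulVec_mulVec, ← mulVec_mulVec, hc, hd, mulVec_smul, mulVec_smul, hc, hd, smul_comm]

/-- a three-dimensional orthogonal space over the field with three elements has a frame permuted by all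
similarities -/
theorem exists_frame_three [Fintype F] (hq : Fintype.card F = 3) (hf : IsSymmetricForm f)
    (h3 : Fintype.card ι = 3) : ∃ (δ : F) (b : Module.Basis (Fin 3) F (ι → F)), δ ≠ 0 ∧
      (∀ i j, f (b i) (b j) = if i = j then δ else 0) ∧
      ∀ g ∈ similarityGroup f, ∀ i, ∃ j, ∃ c : F, (g : Matrix ι ι F) *ᵥ b i = c • b j := by
  have h30 := three_eq_zero hq
  have h2 := two_ne_zero_of_three h30
  set B := toB hf.bilinear
  have hS : B.IsSymm := ⟨fun x y => hf.symm x y⟩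
  have hr : Module.finrank F (ι → F) = 2 + 1 := by simp [h3]
  obtain ⟨δ, b, hδ, hb⟩ : ∃ (δ : F) (b : Module.Basis (Fin 3) F (ι → F)), δ ≠ 0 ∧
      (∀ i j, f (b i) (b j) = if i = j then δ else 0) := by
    obtain ⟨b, h1, h4, h5⟩ := CfsgLib.Forms.exists_orthogonal_basis_one h2 B hS
      (toB_nondeg hf.bilinear hf.nondegenerate) hr
    have e0 := h4 0 (by decide)
    have e1 := h4 1 (by decide)
    change B (b 2) (b 2) ≠ 0 at h5
    rcases cases_three hq (B (b 2) (b 2)) with e2 | e2 | e2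
    · exact (h5 e2).elim
    · refine ⟨1, b, one_ne_zero, fun i j => ?_⟩
      split_ifs with h
      · subst h
        fin_cases i
        exacts [e0, e1, e2]
      · exact h1 i j h
    · let c : Fin 3 → ι → F := ![b 0 + b 1, b 0 - b 1, b 2]
      have hc : ∀ i j, B (c i) (c j) = if i = j then -1 else 0 := fun i j => by
        fin_cases i <;> fin_cases j <;>
          simp [c, e0, e1, e2, h1 0 1, h1 1 0, h1 0 2, h1 2 0, h1 1 2, h1 2 1] <;>
          linear_combination h30
      have hli : LinearIndependent F c := LinearMap.linearIndependent_of_isOrthoᵢ (B := B)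
        (fun i j h => by simpa [h] using hc i j) fun i h => by
          have := hc i i
          rw [show B (c i) (c i) = 0 from h] at this
          simp at this
      refine ⟨-1, basisOfLinearIndependentOfCardEqFinrank hli (by simp [h3]), by simp, fun i j => ?_⟩
      rw [coe_basisOfLinearIndependentOfCardEqFinrank]
      exact hc i j
  refine ⟨δ, b, hδ, hb, fun g ⟨c, hc⟩ i => ?_⟩
  have hs := isSesq_of_symm hf
  have hc1 : (c : F) = 1 := by
    have h1 : (g : Matrix ι ι F)ᵀ * gramMatrix f * (g : Matrix ι ι F).map (RingHom.id F) =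
        (c : F) • gramMatrix f := gform_ext (σ := RingHom.id F) fun u v => by
      rw [← gform_mulVec, gform_smul, ← hs.sesq0.eq_gform, ← hs.sesq0.eq_gform, hc]
    have h4 := congrArg det h1
    rw [RingHom.coe_id, Matrix.map_id, det_mul, det_mul, det_transpose, det_smul, h3] at h4
    have h5 := sq_eq_one_of_three hq g.det_ne_zero
    have h6 : (c : F) ^ 3 = 1 := mul_right_cancel₀ hs.isUnit_det.ne_zero (by
      linear_combination -h4 + (gramMatrix f).det * h5)
    have := FiniteField.pow_card (c : F)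
    rw [hq] at this
    rw [← this, h6]
  have h1 := hc (b i) (b i)
  rw [hc1, one_mul, hb, if_pos rfl] at h1
  set w := (g : Matrix ι ι F) *ᵥ b i
  have hw := b.sum_repr w
  rw [Fin.sum_univ_three] at hw
  generalize b.repr w 0 = x, b.repr w 1 = y, b.repr w 2 = z at hw
  have h4 : x ^ 2 + y ^ 2 + z ^ 2 = 1 := by
    rw [← hw, ← toB_apply hf.bilinear] at h1
    simp only [map_add, map_smul, LinearMap.add_apply, LinearMap.smul_apply, toB_apply, hb,
      smul_eq_mul] at h1
    simp at h1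
    exact mul_right_cancel₀ hδ (by linear_combination h1)
  have h1' : (1 : F) + 1 ≠ 1 := by simp
  have h3' : (1 : F) + 1 + 1 ≠ 1 := fun h => h2 (by linear_combination h)
  by_cases hx : x = 0 <;> by_cases hy : y = 0 <;> by_cases hz : z = 0
  · simp [hx, hy, hz] at h4
  · exact ⟨2, z, by simp [← hw, hx, hy]⟩
  · exact ⟨1, y, by simp [← hw, hx, hz]⟩
  · rw [sq_eq_one_of_three hq hy, sq_eq_one_of_three hq hz, hx] at h4; simp at h4
  · exact ⟨0, x, by simp [← hw, hy, hz]⟩
  · rw [sq_eq_one_of_three hq hx, sq_eq_one_of_three hq hz, hy] at h4; simp at h4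
  · rw [sq_eq_one_of_three hq hx, sq_eq_one_of_three hq hy, hz] at h4; simp at h4
  · rw [sq_eq_one_of_three hq hx, sq_eq_one_of_three hq hy, sq_eq_one_of_three hq hz] at h4
    exact (h3' h4).elim

theorem not_noComm_three [Fintype F] (hq : Fintype.card F = 3) (hf : IsSymmetricForm f)
    (h3 : Fintype.card ι = 3) (hH : H ≤ similarityGroup f) : ¬ NoComm f H := by
  obtain ⟨δ, b, -, hb, h⟩ := exists_frame_three hq hf h3
  exact not_noComm_of_frame hf b (fun i j h => by simp [hb, h]) fun g hg => h g (hH hg)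

/-- an element preserving a proper invariant set of vectors lies in the maximal subgroup -/
theorem mem_of_set (hf : IsSymplecticForm f) (hH : IsMaximalIn (isom f) H) {S : (ι → F) → Prop}
    (hS : ∀ g ∈ H, ∀ v, S v → S ((g : Matrix ι ι F) *ᵥ v)) {u w : ι → F} (hu : u ≠ 0) (hSu : S u)
    (hw : w ≠ 0) (hSw : ¬ S w) {g : GL ι F} (hg : g ∈ isom f)
    (hgS : ∀ v, S v ↔ S ((g : Matrix ι ι F) *ᵥ v)) : g ∈ H := by
  have h := ClMax.IsMaximalIn.eq_inf hH (M := stabilizing (glToMat ι F) {v | S v})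
    (fun x hx v => ⟨hS x hx v, fun h => by
      have := hS x⁻¹ (H.inv_mem hx) _ h
      rwa [show glToMat ι F x = (x : Matrix ι ι F) from rfl, inv_mulVec_mulVec] at this⟩)
    fun h => hSw (forall_of_invariant hf (fun g hg v hv => (h hg v).1 hv) hu hSu hw)
  rw [h]
  exact ⟨hgS, hg⟩

/-- the stabiliser of a pair of totally singular planes is not maximal in `Sp₄(3)` -/
theorem not_max_pair [Fintype F] (hq : Fintype.card F = 3) (hf : IsSymplecticForm f)
    {D : Fin 2 → Submodule F (ι → F)} (hD : IsMDecomposition 2 D)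
    (hts : ∀ i, IsTotallySingularFor f (D i)) (hH : IsMaximalIn (isom f) H)
    (hle : H ≤ decompositionStabilizer D) : False := by
  set B := toB hf.bilinear
  have hA : B.IsAlt := toB_alt hf
  have hB : ∀ u v, f u v = B u v := fun _ _ => rfl
  have hts' : ∀ i, ∀ u ∈ D i, ∀ v ∈ D i, B u v = 0 := hts
  have hdec : ∀ v, ∃ a ∈ D 0, ∃ b ∈ D 1, v = a + b := fun v => by
    obtain ⟨a, ha, rfl⟩ := exists_sum_of_decomp hD v
    exact ⟨a 0, ha 0, a 1, ha 1, by simp⟩
  have hdisj : ∀ v ∈ D 0, v ∈ D 1 → v = 0 :=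
    Submodule.disjoint_def.1 (hD.indep.pairwiseDisjoint (show (0 : Fin 2) ≠ 1 by decide))
  have hn0 : ∀ b ∈ D 1, b ≠ 0 → ∃ w ∈ D 0, B b w ≠ 0 := fun b hb h0 => by
    obtain ⟨x, hx⟩ := (hf.nondegenerate b h0).2
    obtain ⟨u, hu, v, hv, rfl⟩ := hdec x
    exact ⟨u, hu, by simpa [hB, hts' 1 b hb v hv] using hx⟩
  have hn1 : ∀ a ∈ D 0, a ≠ 0 → ∃ w ∈ D 1, B a w ≠ 0 := fun a ha h0 => by
    obtain ⟨x, hx⟩ := (hf.nondegenerate a h0).2
    obtain ⟨u, hu, v, hv, rfl⟩ := hdec x
    exact ⟨v, hv, by simpa [hB, hts' 0 a ha u hu] using hx⟩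
  have hneg : ∀ u v, B u v = 0 ↔ B v u = 0 := fun u v => by rw [← hA.neg_eq, neg_eq_zero]
  obtain ⟨e, he, he0⟩ : ∃ e ∈ D 0, e ≠ 0 := (Submodule.ne_bot_iff _).1 fun h0 => by
    have := hD.finrank_eq 0
    rw [h0, finrank_bot] at this
    omega
  obtain ⟨e', he', he0', hee'⟩ : ∃ e' ∈ D 1, e' ≠ 0 ∧ B e e' = 0 := by
    by_contra hc
    push Not at hc
    have hinj : Function.Injective (B e ∘ₗ (D 1).subtype) := by
      rw [← LinearMap.ker_eq_bot, eq_bot_iff]
      intro v hv
      by_contra h0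
      exact hc v v.2 (fun h => h0 (Subtype.ext h)) hv
    have := LinearMap.finrank_le_finrank_of_injective hinj
    rw [hD.finrank_eq 1] at this
    simp at this
  let S : (ι → F) → Prop := fun v => ∃ a ∈ D 0, ∃ b ∈ D 1, a ≠ 0 ∧ b ≠ 0 ∧ B a b = 0 ∧ v = a + b
  have key : ∀ c : F, ∀ v, S v → S (v + (c * B (e + e') v) • (e + e')) := by
    rintro c _ ⟨a, ha, b, hb, ha0, hb0, hab, rfl⟩
    have h1 : B e b = 0 → B a e' = 0 := fun h => by
      obtain ⟨d, hd⟩ := exists_smul_of_two (hD.finrank_eq 0) (B b) (hn0 b hb hb0) ha he he0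
        ((hneg _ _).1 hab) ((hneg _ _).1 h)
      simp [hd, hee']
    have h2 : B a e' = 0 → B e b = 0 := fun h => by
      obtain ⟨d, hd⟩ := exists_smul_of_two (hD.finrank_eq 1) (B a) (hn1 a ha ha0) hb he' he0' hab h
      simp [hd, hee']
    have h3 : B (e + e') (a + b) = B e b - B a e' := by
      simp [hts' 0 e he a ha, hts' 1 e' he' b hb, ← hA.neg_eq a e', sub_eq_add_neg]
    rw [h3]
    refine ⟨a + (c * (B e b - B a e')) • e, (D 0).add_mem ha ((D 0).smul_mem _ he),
      b + (c * (B e b - B a e')) • e', (D 1).add_mem hb ((D 1).smul_mem _ he'), fun h => ?_,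
      fun h => ?_, ?_, by module⟩
    · have h4 : B a e' = 0 := by simpa [hee'] using congrArg (B · e') h
      exact ha0 (by simpa [h4, h2 h4] using h)
    · have h4 : B e b = 0 := by simpa [hee'] using congrArg (B e) h
      exact hb0 (by simpa [h4, h1 h4] using h)
    · simp only [map_add, map_smul, LinearMap.add_apply, LinearMap.smul_apply, smul_eq_mul, hab, hee']
      by_cases h4 : B e b = 0
      · simp [h4, h1 h4]
      · linear_combination c * sq_eq_one_of_three hq h4 - c * sq_eq_one_of_three hq (mt h2 h4)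
  have hmap : ∀ g ∈ H, (∀ v ∈ D 0, (g : Matrix ι ι F) *ᵥ v ∈ D 0) ∧ (∀ v ∈ D 1, (g : Matrix ι ι F) *ᵥ v ∈ D 1) ∨
      (∀ v ∈ D 0, (g : Matrix ι ι F) *ᵥ v ∈ D 1) ∧ (∀ v ∈ D 1, (g : Matrix ι ι F) *ᵥ v ∈ D 0) :=
    fun g hg => by
      obtain ⟨σ, hσ⟩ := hle hg
      have h1 : ∀ i, ∀ v ∈ D i, (g : Matrix ι ι F) *ᵥ v ∈ D (σ i) := fun i v hv => hσ i ▸ ⟨v, hv, rfl⟩
      have h2 : ∀ σ : Equiv.Perm (Fin 2), σ 0 = 0 ∧ σ 1 = 1 ∨ σ 0 = 1 ∧ σ 1 = 0 := by decide
      rcases h2 σ with ⟨h3, h4⟩ | ⟨h3, h4⟩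
      · exact Or.inl ⟨by simpa only [h3] using h1 0, by simpa only [h4] using h1 1⟩
      · exact Or.inr ⟨by simpa only [h3] using h1 0, by simpa only [h4] using h1 1⟩
  have hne : ∀ (g : GL ι F) (v : ι → F), v ≠ 0 → (g : Matrix ι ι F) *ᵥ v ≠ 0 := fun g v hv h0 =>
    hv (by rw [← inv_mulVec_mulVec g v, h0, mulVec_zero])
  obtain ⟨t, ht, htv⟩ := exists_tv hf (e + e') 1
  have htH : t ∈ H := by
    refine mem_of_set hf hH (S := S) ?_ (u := e + e') (fun h => ?_) ⟨e, he, e', he', he0, he0', hee', rfl⟩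
      he0 ?_ ht fun v => ⟨fun h => htv v ▸ key 1 v h, fun h => ?_⟩
    · rintro g hg _ ⟨a, ha, b, hb, ha0, hb0, hab, rfl⟩
      have hg' : B ((g : Matrix ι ι F) *ᵥ a) ((g : Matrix ι ι F) *ᵥ b) = 0 := (hH.1.le hg a b).trans hab
      rcases hmap g hg with ⟨h1, h2⟩ | ⟨h1, h2⟩
      · exact ⟨_, h1 a ha, _, h2 b hb, hne g a ha0, hne g b hb0, hg', mulVec_add _ _ _⟩
      · exact ⟨_, h2 b hb, _, h1 a ha, hne g b hb0, hne g a ha0, (hneg _ _).1 hg', by
          rw [mulVec_add, add_comm]⟩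
    · exact he0 (hdisj e he (by rw [eq_neg_of_add_eq_zero_left h]; exact (D 1).neg_mem he'))
    · rintro ⟨a, ha, b, hb, -, hb0, -, h⟩
      exact hb0 (hdisj b (by rw [← sub_eq_iff_eq_add'.2 h]; exact (D 0).sub_mem he ha) hb)
    · have := key (-1) _ h
      rw [htv, hB] at this
      simpa [hA.self_eq_zero, -smul_add, -LinearMap.add_apply, -map_add, (B (e + e')).map_add] using this
  obtain ⟨a, ha, ha'⟩ := hn0 e' he' he0'
  have ha0 : a ≠ 0 := fun h => ha' (by simp [h])
  have h1 : (t : Matrix ι ι F) *ᵥ a = (a + B e' a • e) + B e' a • e' := by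
    rw [htv, hB]
    simp [hts' 0 e he a ha, add_assoc]
  have h2 := (D 0).add_mem ha ((D 0).smul_mem (B e' a) he)
  have h3 := (D 1).smul_mem (B e' a) he'
  rcases hmap t htH with ⟨h4, -⟩ | ⟨h4, -⟩
  · have := (D 0).sub_mem (h4 a ha) h2
    rw [h1, add_sub_cancel_left] at this
    exact he0' ((smul_eq_zero.1 (hdisj _ this h3)).resolve_left ha')
  · have := (D 1).sub_mem (h4 a ha) h3
    rw [h1, add_sub_cancel_right] at this
    have h5 := congrArg (B e') (hdisj _ h2 this)
    exact ha' (by simpa [(hneg _ _).1 hee'] using h5)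

theorem tensor_form {n₁ n₂ : ℕ} {e : ι ≃ Fin n₁ × Fin n₂} {P : GL ι F}
    {f₁ : (Fin n₁ → F) → (Fin n₁ → F) → F} {f₂ : (Fin n₂ → F) → (Fin n₂ → F) → F}
    (h : IsTensorFormStructure id f f₁ f₂ e P) (hf₂ : IsBilinearForm f₂) :
    ∃ c : F, c ≠ 0 ∧ ∀ x y, f (vec e P x) (vec e P y) =
      c * ∑ i, ∑ j, gramMatrix f₁ i j * f₂ (fun l => x (i, l)) (fun l => y (j, l)) := by
  obtain ⟨c, hc, h⟩ := h
  refine ⟨c, hc, fun x y => ?_⟩
  rw [vec, vec, h]
  congr 1
  simp only [formOfGram, Fintype.sum_prod_type, (isSesq0_of_bilin hf₂).eq_gform, gform_eq_sum,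
    Finset.mul_sum, kroneckerMap_apply, id, RingHom.id_apply]
  refine Finset.sum_congr rfl fun i _ => ?_
  rw [Finset.sum_comm]
  refine Finset.sum_congr rfl fun j _ => Finset.sum_congr rfl fun k _ =>
    Finset.sum_congr rfl fun l _ => by ring

theorem exists_tens_of_det {w : Fin 2 × Fin 2 → F} (h : w (0, 0) * w (1, 1) = w (0, 1) * w (1, 0)) :
    ∃ y z : Fin 2 → F, w = tens y z := by
  by_cases h0 : w (0, 0) = 0
  · rw [h0, zero_mul, eq_comm, mul_eq_zero] at h
    rcases h with h | h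
    · refine ⟨![0, 1], ![w (1, 0), w (1, 1)], funext fun ⟨i, j⟩ => ?_⟩
      fin_cases i <;> fin_cases j <;> simp [tens, h0, h]
    · refine ⟨![w (0, 1), w (1, 1)], ![0, 1], funext fun ⟨i, j⟩ => ?_⟩
      fin_cases i <;> fin_cases j <;> simp [tens, h0, h]
  · refine ⟨![w (0, 0), w (1, 0)], ![1, w (0, 1) / w (0, 0)], funext fun ⟨i, j⟩ => ?_⟩
    fin_cases i <;> fin_cases j <;> simp [tens] <;> field_simp
    linear_combination h

/-- a four-dimensional orthogonal space of plus type is a tensor square of a symplectic plane -/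
theorem exists_equiv_plus (h2 : (2 : F) ≠ 0) {f₂ : (Fin 4 → F) → (Fin 4 → F) → F}
    (hf : IsSymmetricForm f₂) (hp : IsPlusTypeOn (fun v => f₂ v v) ⊤) :
    ∃ φ : (Fin 2 × Fin 2 → F) ≃ₗ[F] (Fin 4 → F), ∀ y z, f₂ (φ y) (φ z) =
      y (0, 0) * z (1, 1) + y (1, 1) * z (0, 0) - y (0, 1) * z (1, 0) - y (1, 0) * z (0, 1) := by
  obtain ⟨U, -, hU, hd⟩ := hp
  set B := toB hf.bilinear
  have hS : B.IsSymm := ⟨fun x y => hf.symm x y⟩
  have hts : (CfsgLib.Forms.ofSymm h2 B hS).TS U := (CfsgLib.Forms.ofSymm_ts h2 B hS U).2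
    fun x hx y hy => by
      have h1 : B (x + y) (x + y) = 0 := hU _ (U.add_mem hx hy)
      have h3 : B x x = 0 := hU _ hx
      have h4 : B y y = 0 := hU _ hy
      simp only [map_add, LinearMap.add_apply, h3, h4, hS.eq y x] at h1
      exact (mul_eq_zero.1 (show 2 * B x y = 0 by linear_combination h1)).resolve_left h2
  obtain ⟨u, v, -, -, -, huu, hvv, hvu⟩ := hts.exists_hyperbolic
    (CfsgLib.Forms.ofSymm_nondeg h2 B hS (toB_nondeg hf.bilinear hf.nondegenerate)) (k := 2)
    (by simp at hd; omega)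
  simp only [CfsgLib.Forms.ofSymm_B] at huu hvv hvu
  have huv : ∀ i j, B (u i) (v j) = if j = i then 1 else 0 := fun i j => by rw [hS.eq, hvu]
  let φ : (Fin 2 × Fin 2 → F) →ₗ[F] (Fin 4 → F) :=
    (LinearMap.proj (0, 0)).smulRight (u 0) + (LinearMap.proj (1, 1)).smulRight (v 0) +
      (LinearMap.proj (0, 1)).smulRight (u 1) - (LinearMap.proj (1, 0)).smulRight (v 1)
  have hφ : ∀ y z, B (φ y) (φ z) =
      y (0, 0) * z (1, 1) + y (1, 1) * z (0, 0) - y (0, 1) * z (1, 0) - y (1, 0) * z (0, 1) :=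
    fun y z => by
      simp [φ, huu, hvv, huv, hvu]
      ring
  have hinj : Function.Injective φ := by
    rw [← LinearMap.ker_eq_bot, eq_bot_iff]
    intro y hy
    have h : ∀ z : Fin 2 × Fin 2 → F, y (0, 0) * z (1, 1) + y (1, 1) * z (0, 0) - y (0, 1) * z (1, 0) -
        y (1, 0) * z (0, 1) = 0 := fun z => by rw [← hφ, LinearMap.mem_ker.1 hy]; simp
    ext ⟨i, j⟩
    fin_cases i <;> fin_cases j
    · simpa using h (Pi.single (1, 1) 1)
    · simpa using h (Pi.single (1, 0) 1)
    · simpa using h (Pi.single (0, 1) 1)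
    · simpa using h (Pi.single (0, 0) 1)
  exact ⟨φ.linearEquivOfInjective hinj (by simp), hφ⟩

/-- the stabiliser of a tensor decomposition `2 × 4` of plus type is not maximal in `Sp₈` -/
theorem not_max_plus (h2 : (2 : F) ≠ 0) (hf : IsSymplecticForm f) {e : ι ≃ Fin 2 × Fin 4}
    {P : GL ι F} {f₁ : (Fin 2 → F) → (Fin 2 → F) → F} {f₂ : (Fin 4 → F) → (Fin 4 → F) → F}
    (h : TensorData (RingHom.id F) f H e P f₁ f₂ (-1) 1)
    (hp : IsPlusTypeOn (fun v => f₂ v v) ⊤) (hH : IsMaximalIn (isom f) H) : False := by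
  have hf₁ := h.sesq₁.symp h2
  have hf₂ := h.sesq₂.symm
  obtain ⟨φ, hφ⟩ := exists_equiv_plus h2 hf₂ hp
  obtain ⟨c, -, hc⟩ := tensor_form h.struct hf₂.bilinear
  let Φ₀ : (Fin 2 × Fin 2 × Fin 2 → F) →ₗ[F] (ι → F) :=
    { toFun := fun z => vec e P fun a => φ (fun b => z (a.1, b)) a.2
      map_add' := fun x y => by
        rw [vec, vec, vec, ← mulVec_add]
        congr 1
        ext i
        exact congrFun (φ.map_add (fun b => x ((e i).1, b)) fun b => y ((e i).1, b)) (e i).2
      map_smul' := fun d x => by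
        rw [vec, vec, RingHom.id_apply, ← mulVec_smul]
        congr 1
        ext i
        exact congrFun (φ.map_smul d fun b => x ((e i).1, b)) (e i).2 }
  have hinj : Function.Injective Φ₀ := fun x y hxy => by
    have h1 := vec_injective e P hxy
    ext ⟨i, b⟩
    have : φ (fun b => x (i, b)) = φ (fun b => y (i, b)) := funext fun l => congrFun h1 (i, l)
    exact congrFun (φ.injective this) b
  let Φ := Φ₀.linearEquivOfInjective hinj (by simp [Fintype.card_congr e])
  have hΦ : ∀ x w, Φ (tens x w) = vec e P (tens x (φ w)) := fun x w => by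
    change vec e P _ = _
    congr 1
    ext ⟨i, l⟩
    exact congrFun (φ.map_smul (x i) w) l
  let τ₀ : Fin 2 × Fin 2 × Fin 2 ≃ Fin 2 × Fin 2 × Fin 2 :=
    ⟨fun a => (a.2.1, a.1, a.2.2), fun a => (a.2.1, a.1, a.2.2), fun _ => rfl, fun _ => rfl⟩
  let τ := LinearEquiv.funCongrLeft F F τ₀
  have hτ : ∀ z a, τ z a = z (a.2.1, a.1, a.2.2) := fun _ _ => rfl
  have hττ : ∀ z, τ (τ z) = z := fun _ => rfl
  obtain ⟨g, hg, hge⟩ := exists_isom_of_equiv (f := f) (Φ.symm ≪≫ₗ τ ≪≫ₗ Φ) fun u v => by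
    obtain ⟨x, rfl⟩ := Φ.surjective u
    obtain ⟨y, rfl⟩ := Φ.surjective v
    simp only [LinearEquiv.trans_apply, LinearEquiv.symm_apply_apply]
    change f (vec e P _) (vec e P _) = f (vec e P _) (vec e P _)
    rw [hc, hc]
    have h0 : ∀ i, gramMatrix f₁ i i = 0 := fun i => hf₁.alternating _
    have h1 : gramMatrix f₁ 1 0 = -gramMatrix f₁ 0 1 := hf₁.skew _ _
    simp only [Fin.sum_univ_two, h0, h1, hφ, hτ]
    ring
  have hg' : ∀ z, (g : Matrix ι ι F) *ᵥ Φ z = Φ (τ z) := fun z => by simp [hge]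
  let z₀ : Fin 2 × Fin 2 × Fin 2 → F := Pi.single (0, 0, 0) 1 + Pi.single (1, 0, 1) 1
  have hz₀ : ∀ x w, z₀ ≠ tens x w := fun x w h => by
    have a1 := congrFun h (0, 0, 0)
    have a2 := congrFun h (1, 0, 1)
    have a3 := congrFun h (0, 0, 1)
    simp [z₀, tens] at a1 a2 a3
    rcases a3 with h0 | h0
    · simp [h0] at a1
    · simp [h0] at a2
  have hkey : ∀ v, (∃ x y z, v = Φ (tens x (tens y z))) →
      ∃ x y z, (g : Matrix ι ι F) *ᵥ v = Φ (tens x (tens y z)) := by
    rintro _ ⟨x, y, z, rfl⟩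
    refine ⟨y, x, z, ?_⟩
    rw [hg']
    congr 1
    ext a
    simp only [hτ, tens]
    ring
  have hgH : g ∈ H := by
    refine mem_of_set hf hH (S := fun v => ∃ x y z, v = Φ (tens x (tens y z))) ?_
      (u := Φ (tens 1 (tens 1 1))) (w := Φ z₀) (fun h0 => ?_) ⟨_, _, _, rfl⟩ (fun h0 => ?_) ?_ hg
      fun v => ⟨hkey v, fun hv => ?_⟩
    · rintro k hk _ ⟨x, y, z, rfl⟩
      obtain ⟨a, -, b, hb, rfl⟩ := exists_projL h.le hk
      obtain ⟨d, hd⟩ := h.swap.projL_le (hH.1.le.trans isom_le_sim) hb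
      obtain ⟨w, hw⟩ := φ.surjective ((b : Matrix (Fin 4) (Fin 4) F) *ᵥ φ (tens y z))
      have h1 := hd (φ (tens y z)) (φ (tens y z))
      rw [← hw, hφ, hφ] at h1
      obtain ⟨y', z', rfl⟩ := exists_tens_of_det (w := w) (mul_left_cancel₀ h2 (by
        simp only [tens] at h1
        linear_combination h1))
      refine ⟨(a : Matrix (Fin 2) (Fin 2) F) *ᵥ x, y', z', ?_⟩
      rw [hΦ, hΦ, hw, coe_coordGL, coord_vec, ← kron_tens]
      rfl
    · simpa [tens] using congrFun (Φ.map_eq_zero_iff.1 h0) (0, 0, 0)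
    · simpa [z₀] using congrFun (Φ.map_eq_zero_iff.1 h0) (0, 0, 0)
    · rintro ⟨x, y, z, h0⟩
      exact hz₀ _ _ (Φ.injective h0)
    · obtain ⟨z, rfl⟩ := Φ.surjective v
      have := hkey _ hv
      rwa [hg', hg', hττ] at this
  obtain ⟨a, b, hab⟩ := mem_tensorProductSubgroup'.1 (h.le hgH)
  have h1 : τ z₀ = tens (Pi.single 0 1) (Pi.single (0, 0) 1 + Pi.single (1, 1) 1) := by
    ext ⟨i, j, k⟩
    fin_cases i <;> fin_cases j <;> fin_cases k <;> simp [hτ, z₀, tens]
  have h3 := hg' (τ z₀)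
  rw [hττ, h1, hΦ, hab, coord_vec, kron_tens, ← φ.apply_symm_apply (_ *ᵥ φ _), ← hΦ] at h3
  exact hz₀ _ _ (Φ.injective h3).symm

end CfsgLib.CasesSp
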