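import Mathlib
import Cfsg.Agent.Lib.CasesSp.Small

/-! The normaliser of a unitary structure is not maximal in `Sp₄(3)`. -/

set_option autoImplicit false

namespace CfsgLib.CasesSp

open Cfsg Cfsg.Geo Matrix CfsgLib.Asch
open scoped MatrixGroups Kronecker

variable {ι : Type} [Fintype ι] [DecidableEq ι] {F : Type*} [Field F]
variable {f : (ι → F) → (ι → F) → F} {H : Subgroup (GL ι F)}

/-- the condition on the values of the forms describing an invariant line spread -/
def Rel4 {R : Type*} [CommRing R] (a b c d : R) : Prop :=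
  a ≠ 0 ∧ (b * c = d ^ 2 + a ^ 2 ∨ (b = 0 ∧ c = 0 ∧ d = 0))

theorem rel4_neg {R : Type*} [CommRing R] {a b c d : R} : Rel4 a (-b) (-c) (-d) ↔ Rel4 a b c d := by
  simp [Rel4]

theorem rel4_map {R S : Type*} [CommRing R] [CommRing S] (φ : R ≃+* S) {a b c d : R} :
    Rel4 (φ a) (φ b) (φ c) (φ d) ↔ Rel4 a b c d := by
  simp only [Rel4, ← map_mul, ← map_pow, ← map_add, EmbeddingLike.apply_eq_iff_eq, ne_eq,
    map_eq_zero_iff φ φ.injective]

instance (a b c d : ZMod 3) : Decidable (Rel4 a b c d) := by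
  unfold Rel4; infer_instance

/-- the relation in coordinates -/
def RelC {R : Type*} [CommRing R] (a b c d a' b' c' d' : R) : Prop :=
  Rel4 (c * a' + d * b' - a * c' - b * d') (a * a + b * b + c * c + d * d)
    (a' * a' + b' * b' + c' * c' + d' * d') (a * a' + b * b' + c * c' + d * d')

theorem relC_map {R S : Type*} [CommRing R] [CommRing S] (φ : R ≃+* S) {a b c d a' b' c' d' : R} :
    RelC (φ a) (φ b) (φ c) (φ d) (φ a') (φ b') (φ c') (φ d') ↔ RelC a b c d a' b' c' d' := by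
  simp only [RelC, ← map_mul, ← map_add, ← map_sub, rel4_map]

instance (a b c d a' b' c' d' : ZMod 3) : Decidable (RelC a b c d a' b' c' d') := by
  unfold RelC; infer_instance

theorem relC_zmod : ∀ a b c d a' b' c' d' : ZMod 3, RelC a b c d a' b' c' d' ↔
    RelC a b (c + a) (d + b) a' b' (c' + a') (d' + b') := by
  decide +kernel

theorem relC_three [Fintype F] (hq : Fintype.card F = 3) (a b c d a' b' c' d' : F) :
    RelC a b c d a' b' c' d' ↔ RelC a b (c + a) (d + b) a' b' (c' + a') (d' + b') := by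
  have φ := (ZMod.ringEquivOfPrime F Nat.prime_three hq).symm
  rw [← relC_map φ, relC_zmod, ← relC_map φ]
  simp only [map_add]

/-- the relation attached to a form and an endomorphism -/
def Rel (f : (ι → F) → (ι → F) → F) (j : Matrix ι ι F) (u v : ι → F) : Prop :=
  Rel4 (f u v) (f u (j *ᵥ u)) (f v (j *ᵥ v)) (f u (j *ᵥ v))

/-- the stabiliser of a relation on vectors -/
def relStab (R : (ι → F) → (ι → F) → Prop) : Subgroup (GL ι F) where
  carrier := {g | ∀ u v, R u v ↔ R ((g : Matrix ι ι F) *ᵥ u) ((g : Matrix ι ι F) *ᵥ v)}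
  mul_mem' {a b} ha hb u v := by
    rw [Units.val_mul, ← mulVec_mulVec, ← mulVec_mulVec, ← ha, ← hb]
  one_mem' u v := by simp
  inv_mem' {a} ha u v := by
    rw [ha (_ *ᵥ u) (_ *ᵥ v), mulVec_inv_mulVec, mulVec_inv_mulVec]

theorem rel_std (u v : Fin 2 ⊕ Fin 2 → F) : Rel (sympForm 2 F) (J (Fin 2) F) u v ↔
    RelC (u (.inl 0)) (u (.inl 1)) (u (.inr 0)) (u (.inr 1))
      (v (.inl 0)) (v (.inl 1)) (v (.inr 0)) (v (.inr 1)) := by
  have h : ∀ u v : Fin 2 ⊕ Fin 2 → F, sympForm 2 F u (J (Fin 2) F *ᵥ v) =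
      -(u (.inl 0) * v (.inl 0) + u (.inl 1) * v (.inl 1) + u (.inr 0) * v (.inr 0) +
        u (.inr 1) * v (.inr 1)) := fun u v => by
    rw [sympForm, mulVec_mulVec, J_squared]
    simp [neg_mulVec, dotProduct]
    ring
  rw [Rel, h, h, h, rel4_neg, RelC, ← CfsgLib.Forms.spB_eq_sympForm, CfsgLib.Forms.spB_eq_sum]
  simp only [Fin.sum_univ_two]
  congr! 1
  ring

theorem sympForm_two (u v : Fin 2 ⊕ Fin 2 → F) : sympForm 2 F u v =
    u (.inr 0) * v (.inl 0) + u (.inr 1) * v (.inl 1) - u (.inl 0) * v (.inr 0) -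
      u (.inl 1) * v (.inr 1) := by
  rw [← CfsgLib.Forms.spB_eq_sympForm, CfsgLib.Forms.spB_eq_sum]
  simp only [Fin.sum_univ_two]
  ring

theorem not_max_std [Fintype F] (hq : Fintype.card F = 3) {H : Subgroup (GL (Fin 2 ⊕ Fin 2) F)}
    (hH : IsMaximalIn (isom (sympForm 2 F)) H)
    (hj : ∀ g ∈ H, (∀ v, (g : Matrix _ _ F) *ᵥ (J (Fin 2) F *ᵥ v) = J (Fin 2) F *ᵥ ((g : Matrix _ _ F) *ᵥ v)) ∨
      (∀ v, (g : Matrix _ _ F) *ᵥ (J (Fin 2) F *ᵥ v) = -(J (Fin 2) F *ᵥ ((g : Matrix _ _ F) *ᵥ v)))) :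
    False := by
  have hf := sympForm_symp (F := F) 2
  have h3 := three_eq_zero hq
  have h2 := two_ne_zero_of_three h3
  obtain ⟨t, ht, htv⟩ := exists_tv hf (Pi.single (.inr 0) 1) 1
  obtain ⟨s, hs, hsv⟩ := exists_tv hf (Pi.single (.inr 1) 1) 1
  have hts : ∀ v : Fin 2 ⊕ Fin 2 → F, (t * s : GL (Fin 2 ⊕ Fin 2) F).val *ᵥ v =
      Sum.elim (fun i => v (.inl i)) fun i => v (.inr i) + v (.inl i) := fun v => by
    rw [Units.val_mul, ← mulVec_mulVec, htv, hsv]
    ext (i | i) <;> fin_cases i <;> simp [sympForm_two]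
  have h := ClMax.IsMaximalIn.eq_inf hH (M := relStab (Rel (sympForm 2 F) (J (Fin 2) F)))
    (fun g hg u v => by
      have hg' := hH.1.le hg
      rcases hj g hg with h | h
      · simp only [Rel, ← h, hg' _ _]
      · have h' : ∀ u v, sympForm 2 F ((g : Matrix _ _ F) *ᵥ u) (J (Fin 2) F *ᵥ ((g : Matrix _ _ F) *ᵥ v)) =
            -sympForm 2 F u (J (Fin 2) F *ᵥ v) := fun u v => by
          rw [← hg' u, h, ← neg_one_smul F (J (Fin 2) F *ᵥ _), hf.bilinear.smul_right]; ring
        simp only [Rel, h', hg' _ _, rel4_neg])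
    (fun h => by
      have := h ht (Sum.elim 1 0) (Sum.elim 0 1)
      rw [rel_std, rel_std, htv, htv] at this
      have φ := ZMod.ringEquivOfPrime F Nat.prime_three hq
      have h1 : RelC (φ 1) (φ 1) (φ 0) (φ 0) (φ 0) (φ 0) (φ 1) (φ 1) := (relC_map φ).2 (by decide)
      have h4 : ¬ RelC (φ 1) (φ 1) (φ 1) (φ 0) (φ 0) (φ 0) (φ 1) (φ 1) :=
        fun h => absurd ((relC_map φ).1 h) (by decide)
      rw [map_one, map_zero] at h1 h4
      exact h4 (by simpa [sympForm_two] using this.1 (by simpa using h1)))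
  have hg : t * s ∈ H := by
    rw [h]
    refine ⟨fun u v => ?_, (isom _).mul_mem ht hs⟩
    rw [rel_std, rel_std, hts, hts]
    exact relC_three hq ..
  rcases hj _ hg with h | h
  · have := congrFun (h (Pi.single (.inl 0) 1)) (.inl 0)
    rw [hts, hts] at this
    simp [J, mulVec, dotProduct] at this
  · have := congrFun (h (Pi.single (.inl 0) 1)) (.inl 0)
    rw [hts, hts] at this
    simp [J, mulVec, dotProduct] at this

theorem exists_isom_of_gram (hf : IsSymplecticForm f) (c : ι → ι → F)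
    (h : ∀ i j, f (c i) (c j) = f (Pi.single i 1) (Pi.single j 1)) :
    ∃ P ∈ isom f, ∀ i, (P : Matrix ι ι F) *ᵥ Pi.single i 1 = c i := by
  let φ : (ι → F) →ₗ[F] (ι → F) := (Pi.basisFun F ι).constr F c
  have hφ : ∀ i, φ (Pi.single i 1) = c i := fun i => by
    rw [← Pi.basisFun_apply, Module.Basis.constr_basis]
  have h1 : (toB hf.bilinear).compl₁₂ φ φ = toB hf.bilinear :=
    (Pi.basisFun F ι).ext fun i => (Pi.basisFun F ι).ext fun j => by
      simp [hφ, h]
  have h2 : ∀ u v, f (φ u) (φ v) = f u v := LinearMap.congr_fun₂ h1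
  have hinj : Function.Injective φ := by
    rw [← LinearMap.ker_eq_bot, eq_bot_iff]
    intro v hv
    by_contra h0
    obtain ⟨x, hx⟩ := (hf.nondegenerate v h0).1
    exact hx (by rw [← h2, LinearMap.mem_ker.1 hv, zero_right hf.bilinear])
  obtain ⟨P, hP, hPe⟩ := exists_isom_of_equiv (f := f) (LinearEquiv.ofInjectiveEndo φ hinj) h2
  exact ⟨P, hP, fun i => (hPe _).trans (hφ i)⟩

/-- a skew square root of `-1` in a non-self-adjoint field of order nine -/
theorem exists_skew [Fintype F] (hq : Fintype.card F = 3) (hf : IsSymplecticForm f)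
    {K : Subalgebra F (Matrix ι ι F)} (hK : IsFieldSubalgebra 2 K) (hadj : IsAdjointClosedFor f K)
    (hsa : ¬ IsSelfAdjointFor f K) : ∃ j : Matrix ι ι F, j * j = -1 ∧
      (∀ u v, f (j *ᵥ u) v = -f u (j *ᵥ v)) ∧
      ∀ g ∈ isom f, g ∈ subalgebraNormalizer K → cj g j = j ∨ cj g j = -j := by
  have h2 := two_ne_zero_of_three (three_eq_zero hq)
  have hs := isSesq_of_symp hf
  rw [hs.selfAdjoint_iff] at hsa
  rw [hs.adjClosed_iff] at hadj
  push Not at hsa
  obtain ⟨k, hk, hk'⟩ := hsa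
  set j := k - adj (RingHom.id F) f k with hj
  have hjK : j ∈ K := K.sub_mem hk (hadj k hk)
  have hj0 : j ≠ 0 := fun h => hk' (sub_eq_zero.1 h).symm
  have hja : adj (RingHom.id F) f j = -j := by rw [hj, hs.adj_sub, hs.adj_adj, neg_sub]
  have hind : ∀ a b : F, a • (1 : Matrix ι ι F) + b • j = 0 → a • (1 : Matrix ι ι F) = 0 ∧ b = 0 :=
    fun a b h => by
      have h1 := congrArg (adj (RingHom.id F) f) h
      rw [hs.adj_add, hs.adj_smul', hs.adj_smul', hs.adj_one, hja, hs.adj_zero, smul_neg] at h1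
      have h3 : (2 * b) • j = 0 := by
        linear_combination (norm := module) h - h1
      have hb : b = 0 := (mul_eq_zero.1 ((smul_eq_zero.1 h3).resolve_right hj0)).resolve_left h2
      exact ⟨by simpa [hb] using h, hb⟩
  have h10 : (1 : Matrix ι ι F) ≠ 0 := fun h => hj0 (by rw [← mul_one j, h, mul_zero])
  have hspan : ∀ x ∈ K, ∃ a b : F, x = a • 1 + b • j := fun x hx => by
    have hli : LinearIndependent F ![(⟨1, K.one_mem⟩ : K), ⟨j, hjK⟩] := by
      rw [LinearIndependent.pair_iff]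
      intro a b h
      obtain ⟨h1, h3⟩ := hind a b (congrArg Subtype.val h)
      exact ⟨(smul_eq_zero.1 h1).resolve_right h10, h3⟩
    have := (basisOfLinearIndependentOfCardEqFinrank hli (by simp [hK.finrank_eq])).sum_repr ⟨x, hx⟩
    rw [Fin.sum_univ_two, coe_basisOfLinearIndependentOfCardEqFinrank] at this
    exact ⟨_, _, (congrArg Subtype.val this).symm⟩
  have hjj : j * j = -1 := by
    obtain ⟨a, b, hab⟩ := hspan _ (K.mul_mem hjK hjK)
    have h1 := congrArg (adj (RingHom.id F) f) hab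
    rw [hs.adj_mul, hja, neg_mul_neg, hs.adj_add, hs.adj_smul', hs.adj_smul', hs.adj_one, hja] at h1
    have hb : b = 0 := (mul_eq_zero.1 (hind 0 (2 * b) (by
      linear_combination (norm := module) h1 - hab)).2).resolve_left h2
    rw [hb, zero_smul, add_zero] at hab
    rcases cases_three hq a with rfl | rfl | rfl
    · obtain ⟨y, -, hy⟩ := hK.inv j hjK hj0
      exact (hj0 (by rw [← mul_one j, ← hy, ← mul_assoc, hab, zero_smul, zero_mul])).elim
    · exfalso
      obtain ⟨y, -, hy⟩ := hK.inv (1 + j) (K.add_mem K.one_mem hjK) fun h =>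
        one_ne_zero (hind 1 1 (by simpa using h)).2
      have : (1 - j) * (1 + j) = 0 := by
        rw [sub_mul, mul_add, mul_add, hab]; simp [add_comm]
      have h3 : 1 - j = 0 := by rw [← mul_one (1 - j), ← hy, ← mul_assoc, hy, this, zero_mul]
      exact one_ne_zero (neg_eq_zero.1 (hind 1 (-1) (by simpa [sub_eq_add_neg] using h3)).2)
    · simpa using hab
  refine ⟨j, hjj, fun u v => ?_, fun g hg hgK => ?_⟩
  · rw [hs.adj_spec, hja, neg_mulVec, ← neg_one_smul F, hf.bilinear.smul_right, neg_one_mul]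
  · obtain ⟨a, b, hab⟩ := hspan _ ((hgK j).1 hjK)
    rw [← cj_apply] at hab
    have h1 := hs.adj_cj (isom_le_sim hg) j
    rw [hja, map_neg, hab, hs.adj_add, hs.adj_smul', hs.adj_smul', hs.adj_one, hja] at h1
    have ha : a • (1 : Matrix ι ι F) = 0 := by
      have : (2 : F) • a • (1 : Matrix ι ι F) = 0 := by
        linear_combination (norm := module) h1
      exact (smul_eq_zero.1 this).resolve_left h2
    rw [ha, zero_add] at hab
    rcases cases_three hq b with rfl | rfl | rfl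
    · exact (hj0 ((map_eq_zero_iff _ (cj g).injective).1 (by simpa using hab))).elim
    · exact Or.inl (by simpa using hab)
    · exact Or.inr (by simpa using hab)

omit [Fintype ι] [DecidableEq ι] in
theorem exists_beta [Fintype F] (hq : Fintype.card F = 3) (hf : IsSymplecticForm f)
    {j : (ι → F) →ₗ[F] (ι → F)} (hjj : ∀ v, j (j v) = -v) (hj : ∀ u v, f (j u) v = -f u (j v))
    (W : Submodule F (ι → F)) (hW : ∀ w ∈ W, j w ∈ W) (hn : ∃ u ∈ W, ∃ v ∈ W, f u v ≠ 0) :
    ∃ x ∈ W, f x (j x) = -1 := by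
  have h3 := three_eq_zero hq
  have h2 := two_ne_zero_of_three h3
  set B := toB hf.bilinear
  have hA : B.IsAlt := toB_alt hf
  have hj' : ∀ u v, B (j u) v = -B u (j v) := hj
  obtain ⟨x, hx, hx'⟩ : ∃ x ∈ W, B x (j x) ≠ 0 := by
    by_contra hc
    push Not at hc
    obtain ⟨u, hu, v, hv, huv⟩ := hn
    have h1 := hc (u + j v) (W.add_mem hu (hW v hv))
    have h4 := hc (j v) (hW v hv)
    simp only [map_add, LinearMap.add_apply, hc u hu, hjj, map_neg] at h1 h4
    rw [hj' v (j u), hjj, map_neg, ← hA.neg_eq u v] at h1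
    exact huv ((mul_eq_zero.1 (show 2 * B u v = 0 by linear_combination -h1 + h4)).resolve_left h2)
  rcases cases_three hq (B x (j x)) with h | h | h
  · exact (hx' h).elim
  · refine ⟨x + j x, W.add_mem hx (hW x hx), ?_⟩
    change B _ _ = _
    simp only [map_add, LinearMap.add_apply, hjj, map_neg, hA.self_eq_zero, hj' x x, h]
    linear_combination h3
  · exact ⟨x, hx, h⟩

/-- the normaliser of a non-self-adjoint field of order nine is not maximal in `Sp₄(3)` -/
theorem not_max_unitary [Fintype F] (hq : Fintype.card F = 3) {H : Subgroup (GL (Fin 2 ⊕ Fin 2) F)}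
    {K : Subalgebra F (Matrix (Fin 2 ⊕ Fin 2) (Fin 2 ⊕ Fin 2) F)} (hK : IsFieldSubalgebra 2 K)
    (hadj : IsAdjointClosedFor (sympForm 2 F) K) (hsa : ¬ IsSelfAdjointFor (sympForm 2 F) K)
    (hH : IsMaximalIn (isom (sympForm 2 F)) H) (hle : H ≤ subalgebraNormalizer K) : False := by
  have hf := sympForm_symp (F := F) 2
  set f := sympForm 2 F with hfdef
  obtain ⟨j, hjj, hj, hn⟩ := exists_skew hq hf hK hadj hsa
  set B := toB hf.bilinear
  have hA : B.IsAlt := toB_alt hf
  have hj' : ∀ u v, B (j *ᵥ u) v = -B u (j *ᵥ v) := hj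
  have hjj' : ∀ v, j *ᵥ (j *ᵥ v) = -v := fun v => by rw [mulVec_mulVec, hjj, neg_mulVec, one_mulVec]
  obtain ⟨x, -, hx⟩ := exists_beta hq hf (j := Matrix.toLin' j) hjj' hj ⊤ (fun _ _ => trivial) (by
    obtain ⟨y, hy⟩ := (hf.nondegenerate (Pi.single (.inl 0) 1) (by simp)).1
    exact ⟨_, trivial, _, trivial, hy⟩)
  change B x (j *ᵥ x) = -1 at hx
  obtain ⟨y, ⟨hy1, hy2⟩, hy⟩ := exists_beta hq hf (j := Matrix.toLin' j) hjj' hj
    (LinearMap.ker (B x) ⊓ LinearMap.ker (B (j *ᵥ x))) (fun w ⟨h1, h2⟩ => ⟨by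
      have := hj' x w
      rw [show B (j *ᵥ x) w = 0 from h2] at this
      exact neg_eq_zero.1 this.symm, by
      change B (j *ᵥ x) (j *ᵥ w) = 0
      rw [hj', hjj', map_neg, show B x w = 0 from h1]; simp⟩) (by
      obtain ⟨w, hw, h1, h2⟩ := exists_ne_zero_of_three (ι := Fin 2 ⊕ Fin 2) (by simp) (B x) (B (j *ᵥ x))
      obtain ⟨z, hz⟩ := (hf.nondegenerate w hw).2
      refine ⟨w, ⟨h1, h2⟩, z + B x z • j *ᵥ x - B (j *ᵥ x) z • x, ⟨?_, ?_⟩, ?_⟩
      · simp [hx, hA.self_eq_zero]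
      · simp [hA.self_eq_zero, hj' x x, hx]
      · change B w _ ≠ 0
        change B w z ≠ 0 at hz
        simpa [← hA.neg_eq x w, ← hA.neg_eq (j *ᵥ x) w, h1, h2] using hz)
  change B y (j *ᵥ y) = -1 at hy
  change B x y = 0 at hy1
  change B (j *ᵥ x) y = 0 at hy2
  have hy3 : B x (j *ᵥ y) = 0 := by rw [hj'] at hy2; exact neg_eq_zero.1 hy2
  obtain ⟨P, hP, hPe⟩ := exists_isom_of_gram hf (Sum.elim ![x, y] ![j *ᵥ x, j *ᵥ y]) fun a b => by
    rw [hfdef, sympForm_two (Pi.single a 1)]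
    change B _ _ = _
    rcases a with a | a <;> rcases b with b | b <;> fin_cases a <;> fin_cases b <;>
      simp [hA.self_eq_zero, hx, hy, hy1, hy2, hy3, hj', hjj', ← hA.neg_eq x y,
        ← hA.neg_eq (j *ᵥ x) y]
  have hPj : j * P = P * J (Fin 2) F := by
    refine Matrix.toLin'.injective ((Pi.basisFun F _).ext fun a => ?_)
    simp only [Pi.basisFun_apply, Matrix.toLin'_apply, ← mulVec_mulVec, hPe]
    rcases a with a | a
    · have : J (Fin 2) F *ᵥ Pi.single (.inl a) 1 = Pi.single (.inr a) 1 := by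
        ext (i | i) <;> simp [J, Pi.single_apply, one_apply]
      rw [this, hPe]
      fin_cases a <;> rfl
    · have : J (Fin 2) F *ᵥ Pi.single (.inr a) 1 = -Pi.single (.inl a) 1 := by
        ext (i | i) <;> simp [J, Pi.single_apply, one_apply]
      rw [this, mulVec_neg, hPe]
      fin_cases a <;> simp [hjj']
  have h1 := ClMax.isMaximalIn_comap (MulAut.conj P) hH
  have h2 : (isom f).comap (MulAut.conj P).toMonoidHom = isom f := by
    ext g
    simp only [Subgroup.mem_comap, MulEquiv.coe_toMonoidHom, MulAut.conj_apply]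
    rw [(isom f).mul_mem_cancel_right ((isom f).inv_mem hP), (isom f).mul_mem_cancel_left hP]
  rw [h2] at h1
  have hJ : cj P (J (Fin 2) F) = j := cj_eq_iff.2 hPj.symm
  refine not_max_std hq h1 fun g hg => ?_
  have h3 := hn _ (hH.1.le hg) (hle hg)
  simp only [MulEquiv.coe_toMonoidHom, MulAut.conj_apply, ← hJ, cj_mul, cj_inv_cj, ← map_neg,
    EmbeddingLike.apply_eq_iff_eq, cj_eq_iff] at h3
  refine h3.imp (fun h v => ?_) fun h v => ?_
  · rw [mulVec_mulVec, h, mulVec_mulVec]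
  · rw [mulVec_mulVec, h, mulVec_mulVec, neg_mul, neg_mulVec]

end CfsgLib.CasesSp
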