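import Mathlib
import Cfsg.Agent.Lib.CasesSp.Unitary
import Cfsg.Agent.Lib.Asch.Symp

/-! The possible shapes of a maximal subgroup of a finite symplectic group. -/

set_option autoImplicit false

namespace CfsgLib.CasesSp

open Cfsg Cfsg.Geo Matrix CfsgLib.Asch
open scoped MatrixGroups Kronecker

theorem sp_max_cases {F : Type*} [Field F] [Fintype F] {m : ℕ} (hm : 2 ≤ m)
    {H : Subgroup (GL (Fin m ⊕ Fin m) F)} (hH : IsMaximalIn (spGL m F) H) :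
    (∃ W : Submodule F (Fin m ⊕ Fin m → F), W ≠ ⊥ ∧ IsTotallySingularFor (sympForm m F) W ∧
      H = subspaceStabilizer W ⊓ spGL m F) ∨
    (∃ W : Submodule F (Fin m ⊕ Fin m → F), W ≠ ⊥ ∧ IsNondegenerateOn (sympForm m F) W ∧
      Module.finrank F W < m ∧ 2 ≤ Module.finrank F W ∧ H = subspaceStabilizer W ⊓ spGL m F) ∨
    (∃ (t k : ℕ) (D : Fin t → Submodule F (Fin m ⊕ Fin m → F)), t * (2 * k) = 2 * m ∧ 2 ≤ t ∧
      (k = 1 → 3 ≤ Fintype.card F) ∧ IsNondegenerateMDecomposition (sympForm m F) (2 * k) D ∧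
      H = decompositionStabilizer D ⊓ spGL m F) ∨
    (Odd (Fintype.card F) ∧ (m = 2 → 5 ≤ Fintype.card F) ∧
      ∃ D : Fin 2 → Submodule F (Fin m ⊕ Fin m → F), IsMDecomposition m D ∧
      (∀ i, IsTotallySingularFor (sympForm m F) (D i)) ∧ H = decompositionStabilizer D ⊓ spGL m F) ∨
    (∃ (r : ℕ) (K : Subalgebra F (Matrix (Fin m ⊕ Fin m) (Fin m ⊕ Fin m) F)), r.Prime ∧ r ∣ m ∧
      IsFieldSubalgebra r K ∧ IsSelfAdjointFor (sympForm m F) K ∧
      (∀ k ∈ K, ∀ v, sympForm m F (k *ᵥ v) v = 0) ∧ H = subalgebraNormalizer K ⊓ spGL m F) ∨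
    (Odd (Fintype.card F) ∧ (m = 2 → 5 ≤ Fintype.card F) ∧
      ∃ K : Subalgebra F (Matrix (Fin m ⊕ Fin m) (Fin m ⊕ Fin m) F), IsFieldSubalgebra 2 K ∧
      IsAdjointClosedFor (sympForm m F) K ∧ ¬ IsSelfAdjointFor (sympForm m F) K ∧
      H = subalgebraNormalizer K ⊓ spGL m F) ∨
    (Odd (Fintype.card F) ∧ ∃ (n₁ n₂ : ℕ) (e : (Fin m ⊕ Fin m) ≃ Fin (2 * n₁) × Fin n₂)
      (P : GL (Fin m ⊕ Fin m) F) (f₁ : (Fin (2 * n₁) → F) → (Fin (2 * n₁) → F) → F)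
      (f₂ : (Fin n₂ → F) → (Fin n₂ → F) → F), n₁ * n₂ = m ∧ 3 ≤ n₂ ∧
      (n₂ = 3 → 5 ≤ Fintype.card F) ∧ (n₁ = 1 → n₂ = 4 → ¬ IsPlusTypeOn (fun v => f₂ v v) ⊤) ∧
      IsSymplecticForm f₁ ∧ IsSymmetricForm f₂ ∧ IsTensorFormStructure id (sympForm m F) f₁ f₂ e P ∧
      H = tensorProductSubgroup (2 * n₁) n₂ e P ⊓ spGL m F) ∨
    (∃ (F₀ : Subfield F) (r : ℕ) (P : GL (Fin m ⊕ Fin m) F) (ζ : F), r.Prime ∧
      Fintype.card F = Nat.card F₀ ^ r ∧ ζ ≠ 0 ∧ IsFormRationalStructure (sympForm m F) F₀ ζ P ∧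
      H = subfieldSubgroup F₀ P ⊓ spGL m F) ∨
    (∃ (k p : ℕ) (R : Subgroup (GL (Fin m ⊕ Fin m) F)), 2 * m = 2 ^ k ∧ p.Prime ∧ Odd p ∧
      Fintype.card F = p ∧ IsSymplecticTypeGroup 2 R ∧ ActsAbsolutelyIrreducibly (matrixSet R) ∧
      R ≤ similarityGroup (sympForm m F) ∧ Nat.card R = 2 ^ (1 + 2 * k) ∧
      Nat.card (Subgroup.center R) = 2 ∧ IsOfMinusType k R ∧ H = subgroupNormalizer R ⊓ spGL m F) ∨
    (Odd (Fintype.card F) ∧ ∃ (k t : ℕ) (e : (Fin m ⊕ Fin m) ≃ (Fin t → Fin k))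
      (P : GL (Fin m ⊕ Fin m) F) (f₁ : (Fin k → F) → (Fin k → F) → F), 2 * m = k ^ t ∧ 2 ≤ k ∧
      3 ≤ t ∧ (k = 2 → 5 ≤ Fintype.card F) ∧ IsSymplecticForm f₁ ∧
      IsTensorPowerFormStructure id (sympForm m F) f₁ e P ∧
      H = tensorWreathSubgroup k t e P ⊓ spGL m F) ∨
    (¬ Odd (Fintype.card F) ∧ ∃ Q : (Fin m ⊕ Fin m → F) → F, IsNondegenerateQuadraticForm Q ∧
      (∀ u v, QuadraticMap.polar Q u v = sympForm m F u v) ∧
      H = quadSimilarityGroup Q ⊓ spGL m F) ∨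
    InSymplecticResidualClass H := by
  classical
  have hf := sympForm_symp (F := F) m
  have hc : Fintype.card (Fin m ⊕ Fin m) = 2 * m := by simp [two_mul]
  have h3 : 3 ≤ Fintype.card (Fin m ⊕ Fin m) := by omega
  have : Nonempty (Fin m ⊕ Fin m) := Fintype.card_pos_iff.1 (by omega)
  have hq : 2 ≤ Fintype.card F := Fintype.one_lt_card
  have h5 : Odd (Fintype.card F) → Fintype.card F ≠ 3 → 5 ≤ Fintype.card F := fun ⟨k, hk⟩ h => by
    omega
  have eq : ∀ {M}, H ≤ M → ¬ isom (sympForm m F) ≤ M → H = M ⊓ spGL m F :=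
    fun h1 h2 => ClMax.IsMaximalIn.eq_inf hH h1 h2
  rcases symp_cases (by omega) hf (le_spGL_iff.1 hH.1.le) with ⟨W, h1, h2, h⟩ | ⟨W, h1, h2, h4, h⟩ |
    ⟨t, k, D, h1, h⟩ | ⟨h0, k, D, h1, h2, h⟩ | ⟨F₀, r, P, ζ, h1, h2, h4, h6, h⟩ | ⟨h0, R, k, h⟩ |
    ⟨h0, Q, h1, h2, h⟩ | ⟨s, K, h1, h2, h4, h6, h⟩ | ⟨h0, K, h1, h2, h4, h⟩ |
    ⟨h0, -, hnc, n₁, n₂, e, P, f₁, f₂, h1, h⟩ | ⟨h0, k, t, e, P, f₁, h1, h2, h7, h4, h6, h8, h⟩ | h
  · exact Or.inl ⟨W, h1, h2, eq h (not_le_stab hf h1 (ne_top_of_ts hf.nondegenerate h1 h2))⟩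
  · refine Or.inr (Or.inl ⟨W, h1, h2, by omega, ?_, eq h (not_le_stab hf h1 ?_)⟩)
    · obtain ⟨k, hk⟩ := even_of_nondegOn hf h2
      have := Submodule.finrank_eq_zero.not.2 h1
      omega
    · rintro rfl
      simp at h4
      omega
  · obtain ⟨k, rfl⟩ := (even_of_decomp hf h1).two_dvd
    by_cases h2 : k = 1 ∧ Fintype.card F = 2
    · obtain ⟨rfl, h2⟩ := h2
      obtain ⟨Q, hQ1, hQ2, hQ3, -⟩ := quad_of_two h2 hf h1
      iterate 10 right
      exact Or.inl ⟨by rw [h2]; decide, Q, hQ1, hQ2, eq (fun g hg => ⟨1, fun v => by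
        rw [hQ3 g ⟨h hg, hH.1.le hg⟩]; simp⟩) (not_le_quad hf h3 hQ2)⟩
    · refine Or.inr (Or.inr (Or.inl ⟨t, k, D, hc ▸ card_eq_of_decomp h1.decomp, h1.decomp.two_le,
        fun hk => ?_, h1, eq h (not_le_decomp hf h1.decomp)⟩))
      have := not_and.1 h2 hk
      omega
  · obtain rfl : k = m := by have := card_eq_of_decomp h1; omega
    iterate 3 right
    refine Or.inl ⟨h0, ?_, D, h1, h2, eq h (not_le_decomp hf h1)⟩
    rintro rfl
    exact h5 h0 fun hq => not_max_pair hq hf h1 h2 hH h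
  · iterate 7 right
    refine Or.inl ⟨F₀, r, P, ζ, h1, h2, h4, h6, eq h (not_le_subfield hf (by omega) ?_ P)⟩
    rintro rfl
    rw [Nat.card_congr Subfield.topEquiv.toEquiv, Nat.card_eq_fintype_card] at h2
    have := Nat.pow_lt_pow_right hq h1.one_lt
    rw [pow_one] at this
    omega
  · iterate 8 right
    have : Finite R := inferInstance
    exact Or.inl ⟨k, _, R, hc ▸ h.dim, h0, odd_card_iff.2 h.two_ne, rfl, h.type,
      absIrred_of_env h.env_top, le_similarityGroup_of_fixes h.fixes, h.card, h.card_center,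
      h.minus hf, eq h.nrm.le_subgroupNormalizer (not_le_extra hf h3 h.two_ne
        (extraspecial_of_type h.type h.card_center) (absIrred_of_env h.env_top)
        (le_similarityGroup_of_fixes h.fixes))⟩
  · iterate 10 right
    exact Or.inl ⟨h0, Q, h1, h2, eq (le_quadSimilarityGroup h) (not_le_quad hf h3 h2)⟩
  · iterate 4 right
    exact Or.inl ⟨s, K, h1, Nat.dvd_of_mul_dvd_mul_left two_pos (hc ▸ two_mul_dvd_of_field hf h2 h4 h6),
      h2, h4, h6, eq h.le_normalizer (not_le_field hf h3 h1.two_le h2)⟩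
  · iterate 5 right
    refine Or.inl ⟨h0, ?_, K, h1, h2, h4, eq h.le_normalizer (not_le_field hf h3 le_rfl h1)⟩
    rintro rfl
    exact h5 h0 fun hq => not_max_unitary hq h1 h2 h4 hH h.le_normalizer
  · iterate 6 right
    have h2 := odd_card_iff.1 h0
    have hf₁ := h.sesq₁.symp h2
    obtain ⟨n₁, rfl⟩ : 2 ∣ n₁ := by simpa using (even_card_of_symplectic hf₁).two_dvd
    refine Or.inl ⟨h0, n₁, n₂, e, P, f₁, f₂, ?_, h1, ?_, ?_, hf₁, h.sesq₂.symm, h.struct,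
      eq h.le (not_le_tensor hf h.two_le₁ h.two_le₂ e P)⟩
    · have := h.card_eq
      rw [hc, mul_assoc] at this
      omega
    · rintro rfl
      exact h5 h0 fun hq => not_noComm_three hq h.sesq₂.symm (by simp)
        (h.swap.projL_le (hH.1.le.trans isom_le_sim)) (h.swap.noComm (isSesq_of_symp hf) hnc)
    · rintro rfl rfl hp
      exact not_max_plus h2 hf h hp hH
  · iterate 9 right
    refine Or.inl ⟨h0, k, t, e, P, f₁, ?_, h7, h2, fun hk => h5 h0 fun hq => h4 ⟨hq, hk⟩, h6, h8,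
      eq h (not_le_wreath hf h7 (by omega) e P)⟩
    rw [← hc, Fintype.card_congr e]
    simp
  · iterate 11 right
    exact h

theorem pow_cases {k t n : ℕ} (h : n = k ^ t) (hk : 2 ≤ k) (ht : 3 ≤ t) (hn : n < 16) :
    k = 2 ∧ t = 3 := by
  have h1 : k < 3 := by
    by_contra h1
    have := (Nat.pow_le_pow_left (not_lt.1 h1) 3).trans (Nat.pow_le_pow_right (by omega) ht)
    omega
  obtain rfl : k = 2 := by omega
  have h2 : t < 4 := by
    by_contra h2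
    have := Nat.pow_le_pow_right two_pos (not_lt.1 h2)
    omega
  exact ⟨rfl, by omega⟩

theorem two_pow_cases {k n : ℕ} (h : n = 2 ^ k) (hn : n < 16) :
    k = 0 ∨ k = 1 ∨ k = 2 ∨ k = 3 := by
  have h2 : k < 4 := by
    by_contra h2
    have := Nat.pow_le_pow_right two_pos (not_lt.1 h2)
    omega
  omega

end CfsgLib.CasesSp
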